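import Cfsg.Agent.Lib.BrauerCharacters.AbelianPrincipalThree

/-!
# An involution in no proper normal subgroup
-/

set_option autoImplicit false

namespace CfsgLib.BrauerCharacters.AbelianPrincipal

open Cfsg CfsgLib.CharTheory CfsgLib.Blocks Finset
open scoped ComplexConjugate IsMulCommutative Classical

variable {G : Type*} [Group G] [Fintype G] {p : ℕ} [hp : Fact p.Prime]
variable {M : Ideal AlgInt} [M.IsPrime]
variable {P : Sylow p G} [IsMulCommutative P]

theorem sum_ne_one_apply {w : ↥(P : Subgroup G)} (hw : w ≠ 1) :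
    ∑ ψ ∈ univ.filter (fun ψ : ↥(P : Subgroup G) →* ℂˣ => ψ ≠ 1), (ψ w : ℂ) = -1 := by
  rw [filter_ne', sum_erase_eq_sub (mem_univ _), Brauer.sum_homUnits_apply, if_neg hw]
  simp

namespace Data

variable (D : Data M P 3)

theorem sum_Y_mul_three (H : Hyp P 3) (F : IrrCharacter G → ℂ) :
    3 * ∑ η ∈ D.Y, F η =
      ∑ ψ ∈ univ.filter (fun ψ : ↥(P : Subgroup G) →* ℂˣ => ψ ≠ 1), F (D.ζ ψ) := by
  rw [← sum_fiberwise_of_maps_to (t := D.Y) (g := D.ζ) (fun ψ hψ =>
    D.mem_Y.2 ⟨ψ, (mem_filter.1 hψ).2, rfl⟩), mul_sum]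
  refine sum_congr rfl fun η hη => ?_
  rw [sum_congr rfl (g := fun _ => F η) (fun ψ hψ => by rw [(mem_filter.1 hψ).2]), sum_const,
    nsmul_eq_mul]
  obtain ⟨φ, hφ, rfl⟩ := D.mem_Y.1 hη
  rw [show (3 : ℂ) = ((orbit P φ).card : ℂ) by rw [H.card_orbit hφ]; norm_num]
  refine congrArg (fun S : Finset (↥(P : Subgroup G) →* ℂˣ) => (S.card : ℂ) * F (D.ζ φ)) ?_
  ext ψ
  simp only [mem_filter, mem_univ, true_and, mem_orbit]
  refine ⟨fun h => ?_, fun ⟨h1, h2⟩ => (D.hζ φ ψ hφ h1).1 h2.symm⟩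
  have h1 : ψ ≠ 1 := fun e => hφ (by
    obtain ⟨n, hn⟩ := (sameOrbit_iff P).1 h
    exact (twist_eq_one_iff P n φ).1 (hn.trans e))
  exact ⟨h1, ((D.hζ φ ψ hφ h1).2 h).symm⟩

theorem sum_pair_equation (H : Hyp P 3) (hM : IsPModular p M) (hd : D.d = 0) {t : G}
    (ht : orderOf t = 2) {η0 : IrrCharacter G} (hη0 : η0 ∈ D.Y) :
    ∃ (c : IrrCharacter G → ℤ) (e : ℤ),
      (∀ χ ∈ D.X, ((D.v χ : ℂ) * (χ : G → ℂ) t = (c χ : ℂ))) ∧
      c (trivIrr G) = 1 ∧ ((p ≠ 2 ∧ ((D.s : ℂ) * (η0 : G → ℂ) t = (e : ℂ))) ∨ (p = 2 ∧ e = -3)) ∧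
      (∑ χ ∈ D.X, c χ) + e = 0 ∧
      ∑ χ ∈ D.X, (c χ : ℂ) ^ 2 / ((D.v χ : ℂ) * (χ : G → ℂ) 1) +
        (e : ℂ) ^ 2 / ((D.s : ℂ) * (η0 : G → ℂ) 1) = 0 := by
  obtain ⟨n, hn, hn1, hn2, hn3, hcos⟩ := exists_three_cosets H
  have hreg1 : ¬ p ∣ orderOf (1 : G) := by rw [orderOf_one]; exact hp.out.not_dvd_one
  have hdeg : ∀ η ∈ D.Y, (η : G → ℂ) 1 = (η0 : G → ℂ) 1 := fun η hη =>
    D.apply_Y_eq hM hη hη0 hreg1
  have hsq : ∀ χ ∈ D.X, (D.v χ : ℂ) ^ 2 = 1 := by
    intro χ hχ
    have hle : D.v χ ^ 2 ≤ 3 := by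
      have h1 := single_le_sum (fun χ _ => sq_nonneg (D.v χ)) hχ
      have h2 := D.norm_eq
      rw [hd] at h2
      push_cast at h2
      linarith
    have hne := D.v_ne_zero H hM hχ
    have h1 : D.v χ ^ 2 = 1 := by
      have : -1 ≤ D.v χ := by nlinarith
      have : D.v χ ≤ 1 := by nlinarith
      rcases (show D.v χ = 1 ∨ D.v χ = -1 by omega) with e | e <;> rw [e] <;> norm_num
    exact_mod_cast congrArg (Int.cast : ℤ → ℂ) h1
  -- the conjugates of `t` in `P` and a suitable `y`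
  have hpow : ∀ {w : G}, w ∈ (P : Subgroup G) → ∃ j, orderOf w = p ^ j := fun {w} hw => by
    obtain ⟨j, hj⟩ := (IsPGroup.iff_orderOf.1 P.2) ⟨w, hw⟩
    exact ⟨j, by rwa [Subgroup.orderOf_mk] at hj⟩
  let n' : ↥(Subgroup.normalizer ((P : Subgroup G) : Set G)) := ⟨n, hn⟩
  let Ψ : (↥(P : Subgroup G) →* ℂˣ) → ↥(P : Subgroup G) → ℂ := fun ψ w =>
    (ψ w : ℂ) + (twist P n' ψ w : ℂ) + (twist P (n' * n') ψ w : ℂ)
  have horb : ∀ ψ, ψ ≠ 1 → ∀ w, ∑ φ ∈ orbit P ψ, (φ w : ℂ) = Ψ ψ w := by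
    intro ψ hψ w
    have h1 : twist P n' ψ ≠ ψ := fun e => hn1 ((H.twist_eq_self hψ n').1 e)
    have h2 : twist P (n' * n') ψ ≠ ψ := fun e => hn2 ((H.twist_eq_self hψ _).1 e)
    have hinj : Function.Injective (twist P n') := fun a b h => by
      have h' := congrArg (twist P n'⁻¹) h
      rwa [← twist_mul, ← twist_mul, inv_mul_cancel, twist_one, twist_one] at h'
    have h3 : twist P n' ψ ≠ twist P (n' * n') ψ := fun e => by
      rw [twist_mul] at e
      exact h1 (hinj e).symm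
    have he : orbit P ψ = {ψ, twist P n' ψ, twist P (n' * n') ψ} := by
      refine (eq_of_subset_of_card_le ?_ ?_).symm
      · simp only [insert_subset_iff, singleton_subset_iff, mem_orbit, sameOrbit_iff]
        exact ⟨⟨1, twist_one P ψ⟩, ⟨n', rfl⟩, ⟨n' * n', rfl⟩⟩
      · rw [H.card_orbit hψ, card_eq_three.2 ⟨_, _, _, h1.symm, h2.symm, h3, rfl⟩]
    rw [he, sum_insert (by simp [h1.symm, h2.symm]), sum_pair h3]
    ring
  have hcj : ∀ (k : ↥(Subgroup.normalizer ((P : Subgroup G) : Set G))) {w : ↥(P : Subgroup G)},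
      w ≠ 1 → (⟨(k : G)⁻¹ * w * k, inv_conj_mem P k w⟩ : ↥(P : Subgroup G)) ≠ 1 := by
    intro k w hw e
    have e1 : (k : G)⁻¹ * w * k = 1 := congrArg Subtype.val e
    refine hw (Subtype.ext ?_)
    show (w : G) = 1
    rw [show (w : G) = (k : G) * ((k : G)⁻¹ * w * k) * (k : G)⁻¹ by group, e1]; group
  have hsumΨ : ∀ w : ↥(P : Subgroup G), w ≠ 1 →
      ∑ ψ ∈ univ.filter (fun ψ : ↥(P : Subgroup G) →* ℂˣ => ψ ≠ 1), Ψ ψ w = -3 := by
    intro w hw
    simp only [Ψ, sum_add_distrib, twist_apply]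
    rw [sum_ne_one_apply hw, sum_ne_one_apply (hcj n' hw), sum_ne_one_apply (hcj (n' * n') hw)]
    norm_num
  by_cases hp2 : p = 2
  · -- `t` is conjugate into `P`
    obtain ⟨Q, hQ⟩ := (IsPGroup.of_card (p := p) (n := 1) (G := ↥(Subgroup.zpowers t))
      (by rw [Nat.card_zpowers, ht, hp2, pow_one])).exists_le_sylow
    obtain ⟨g0, hg0⟩ := MulAction.exists_smul_eq G Q P
    set t0 := g0 * t * g0⁻¹ with ht0
    have ht0P : t0 ∈ (P : Subgroup G) := by
      rw [← hg0]; exact ⟨t, hQ (Subgroup.mem_zpowers t), rfl⟩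
    have htc : IsConj t t0 := isConj_iff.2 ⟨g0, rfl⟩
    have ht2 : orderOf t0 = 2 := by
      rw [ht0, show g0 * t * g0⁻¹ = MulAut.conj g0 t from rfl]
      exact (orderOf_injective (MulAut.conj g0).toMonoidHom (MulAut.conj g0).injective t).trans ht
    have ht1 : t0 ≠ 1 := fun e => by rw [e, orderOf_one] at ht2; omega
    set A : ↥(P : Subgroup G) := ⟨t0, ht0P⟩ with hA
    set B : ↥(P : Subgroup G) := ⟨(n' : G)⁻¹ * A * n', inv_conj_mem P n' A⟩ with hB
    set C : ↥(P : Subgroup G) := ⟨((n' * n' : ↥(Subgroup.normalizer ((P : Subgroup G) : Set G))) : G)⁻¹ *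
      A * ((n' * n' : ↥(Subgroup.normalizer ((P : Subgroup G) : Set G))) : G),
      inv_conj_mem P (n' * n') A⟩ with hC
    have hA1 : A ≠ 1 := fun e => ht1 (congrArg Subtype.val e)
    have hO : ∀ q : ↥(P : Subgroup G), IsConj t (q : G) → q = A ∨ q = B ∨ q = C := by
      intro q hq
      obtain ⟨g, hg⟩ := isConj_iff.1 (htc.symm.trans hq)
      obtain ⟨k, hk, e⟩ := P.conj_eq_normalizer_conj_of_mem t0 g⁻¹ ht0P
        (by rw [inv_inv, hg]; exact q.2)
      rw [inv_inv, hg] at e
      have hcomm : ∀ (x : G), x ∈ Subgroup.centralizer ((P : Subgroup G) : Set G) →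
          ∀ w : ↥(P : Subgroup G), x⁻¹ * (w : G) * x = w := fun x hx w => by
        rw [mul_assoc, Subgroup.mem_centralizer_iff.1 hx _ w.2, inv_mul_cancel_left]
      rcases hcos k hk with h | h | h
      · exact Or.inl (Subtype.ext (e.trans (hcomm k h A)))
      · refine Or.inr (Or.inl (Subtype.ext (e.trans ?_)))
        have := hcomm _ h B
        simp only [hB, hA] at this ⊢
        rw [show k⁻¹ * t0 * k = (n⁻¹ * k)⁻¹ * (n⁻¹ * t0 * n) * (n⁻¹ * k) by group]
        exact this
      · refine Or.inr (Or.inr (Subtype.ext (e.trans ?_)))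
        have := hcomm _ h C
        simp only [hC, hA, n', Subgroup.coe_mul] at this ⊢
        rw [show k⁻¹ * t0 * k =
          ((n * n)⁻¹ * k)⁻¹ * ((n * n)⁻¹ * t0 * (n * n)) * ((n * n)⁻¹ * k) by group]
        exact this
    have hAA : A * A = 1 := Subtype.ext (by
      have h := pow_orderOf_eq_one t0
      rwa [ht2, pow_two] at h)
    have hBB : B * B = 1 := Subtype.ext (by
      have e := congrArg Subtype.val hAA
      simp only [hA, hB, Subgroup.coe_mul, Subgroup.coe_one] at e ⊢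
      calc _ = (n' : G)⁻¹ * (t0 * t0) * (n' : G) := by group
        _ = 1 := by rw [e]; group)
    have hCC : C * C = 1 := Subtype.ext (by
      have e := congrArg Subtype.val hAA
      simp only [hA, hC, Subgroup.coe_mul, Subgroup.coe_one] at e ⊢
      calc _ = ((n' : G) * n')⁻¹ * (t0 * t0) * ((n' : G) * n') := by group
        _ = 1 := by rw [e]; group)
    have hABC : A * B * C = 1 := by
      by_contra hne
      set S := A * B * C with hS
      refine hn1 ((H.frob (S : G) S.2 fun e => hne (Subtype.ext e)).le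
        ⟨Subgroup.mem_centralizer_singleton_iff.2 ?_, hn⟩)
      have h3 : (n * n * n)⁻¹ * t0 * (n * n * n) = t0 := by
        rw [mul_assoc, Subgroup.mem_centralizer_iff.1 hn3 _ ht0P, inv_mul_cancel_left]
      have h4 : n⁻¹ * (S : G) * n = (S : G) := by
        have hS' : S = B * C * A := by rw [hS, mul_assoc, mul_comm]
        conv_rhs => rw [hS']
        simp only [hS, hA, hB, hC, n', Subgroup.coe_mul]
        calc _ = (n⁻¹ * t0 * n) * ((n * n)⁻¹ * t0 * (n * n)) * ((n * n * n)⁻¹ * t0 * (n * n * n)) := by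
              group
          _ = _ := by rw [h3]
      calc n * (S : G) = n * (n⁻¹ * (S : G) * n) := by rw [h4]
        _ = (S : G) * n := by group
    have hAB : A * B = C := by
      have := congrArg (· * C) hABC
      simpa [mul_assoc, hCC] using this
    have hAC : A * C = B := by rw [← hAB, ← mul_assoc, hAA, one_mul]
    have hBC : B * C = A := by rw [← hAB, mul_left_comm, hBB, mul_one]
    obtain ⟨y, hy, hy1, hyO⟩ : ∃ y : ↥(P : Subgroup G), y ≠ A ∧ y ≠ 1 ∧ ¬ IsConj t (y : G) := by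
      by_contra hc
      push Not at hc
      have hsub : (univ : Finset ↥(P : Subgroup G)) ⊆ {1, A, B, C} := fun q _ => by
        by_cases h1 : q = A
        · simp [h1]
        by_cases h2 : q = 1
        · simp [h2]
        rcases hO q (hc q h1 h2) with e | e | e <;> simp [e]
      have := card_le_card hsub
      rw [card_univ, ← Nat.card_eq_fintype_card] at this
      have h4 : ({1, A, B, C} : Finset ↥(P : Subgroup G)).card ≤ 4 := card_le_four
      have := H.lt
      omega
    obtain ⟨K, hKC, hKn, hKp, -, hKreg, hdec⟩ :=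
      exists_complement_centralizer P y.2 (H.frob _ y.2 fun e => hy1 (Subtype.ext e)).le
    have hpair := sum_principal_sq_mul_eq_zero hM (Classical.choose_spec (hpow y.2))
      (fun e => hy1 (Subtype.ext e)) K hKC hKn hKp hKreg ht (by
      rintro k hk u ⟨hu, hv⟩
      have huu : ∀ w, IsConj t w → w * w = 1 := fun w hw => by
        obtain ⟨g, rfl⟩ := isConj_iff.1 hw
        have h := pow_orderOf_eq_one t
        rw [ht, pow_two] at h
        rw [show g * t * g⁻¹ * (g * t * g⁻¹) = g * (t * t) * g⁻¹ by group, h]; group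
      set v := u * ((y : G) * k) with hvdef
      have hu2 := huu u hu
      have hv2 : v * v = 1 := huu v hv
      have hinv : u * ((y : G) * k) * u⁻¹ = ((y : G) * k)⁻¹ := by
        rw [inv_eq_of_mul_eq_one_right hu2, eq_inv_iff_mul_eq_one]
        simpa [hvdef, mul_assoc] using hv2
      have hpp : IsPPart p ((y : G) * k) y := isPPart_mul
        (Subgroup.mem_centralizer_singleton_iff.1 (hKC hk)).symm (hpow y.2)
        fun h => hKp (h.trans (Subgroup.orderOf_dvd_natCard _ hk))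
      have hconj := Blocks.IsPPart.conj hpp u
      rw [hinv] at hconj
      have huy : u * (y : G) * u⁻¹ = (y : G)⁻¹ := Blocks.IsPPart.unique hconj (Blocks.IsPPart.inv hpp)
      have hyy := sq_eq_one_of_conj_inv H y.2 huy
      have huC : u ∈ Subgroup.centralizer ({(y : G)} : Set G) := by
        rw [inv_eq_of_mul_eq_one_right hyy, mul_inv_eq_iff_eq_mul] at huy
        exact Subgroup.mem_centralizer_singleton_iff.2 huy
      obtain ⟨k1, hk1, q, hq, huq⟩ := hdec u huC
      have hord : ∀ w, IsConj t w → ∃ j, orderOf w = p ^ j := fun w hw => by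
        obtain ⟨g, rfl⟩ := isConj_iff.1 hw
        refine ⟨1, ?_⟩
        rw [pow_one, hp2, show g * t * g⁻¹ = MulAut.conj g t from rfl]
        exact (orderOf_injective (MulAut.conj g).toMonoidHom (MulAut.conj g).injective t).trans ht
      have hq' : IsConj t q := hu.trans (by
        rw [huq]
        exact isConj_of_decomp y.2 K hKC hKn hKp hdec hk1 hq (huq ▸ hord u hu))
      have hqy : v = (k1 * (q * ((y : G) * k) * (q * (y : G))⁻¹)) * (q * (y : G)) := by
        rw [hvdef, huq]; group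
      have hqyC : q * (y : G) ∈ Subgroup.centralizer ({(y : G)} : Set G) :=
        Subgroup.mem_centralizer_singleton_iff.2
          (congrArg Subtype.val (mul_comm' (⟨q * (y : G), mul_mem hq y.2⟩ : P) y))
      have hk2 : k1 * (q * ((y : G) * k) * (q * (y : G))⁻¹) ∈ K := by
        refine K.mul_mem hk1 ?_
        rw [show q * ((y : G) * k) * (q * (y : G))⁻¹ = (q * (y : G)) * k * (q * (y : G))⁻¹ by group]
        exact hKn _ hqyC k hk
      have hqy' : IsConj t (q * (y : G)) := hv.trans (by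
        rw [hqy]
        exact isConj_of_decomp y.2 K hKC hKn hKp hdec hk2 (mul_mem hq y.2) (hqy ▸ hord v hv))
      have hQY := hO ⟨q * (y : G), mul_mem hq y.2⟩ hqy'
      have hmk : (⟨q * (y : G), mul_mem hq y.2⟩ : ↥(P : Subgroup G)) = ⟨q, hq⟩ * y := rfl
      rw [hmk] at hQY
      have hB' : IsConj t (B : G) := htc.trans (isConj_iff.2 ⟨n⁻¹, by simp [hB, hA, n']⟩)
      have hC' : IsConj t (C : G) :=
        htc.trans (isConj_iff.2 ⟨(n * n)⁻¹, by simp [hC, hA, n', mul_assoc]⟩)
      have hsol : ∀ a b : ↥(P : Subgroup G), a * a = 1 → a * y = b → y = a * b := fun a b ha h => by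
        rw [← h, ← mul_assoc, ha, one_mul]
      rcases hO ⟨q, hq⟩ hq' with e | e | e <;> rw [e] at hQY <;> rcases hQY with h | h | h
      · exact hy1 ((hsol _ _ hAA h).trans hAA)
      · exact hyO (by rw [hsol _ _ hAA h, hAB]; exact hC')
      · exact hyO (by rw [hsol _ _ hAA h, hAC]; exact hB')
      · exact hyO (by rw [hsol _ _ hBB h, mul_comm, hAB]; exact hC')
      · exact hy1 ((hsol _ _ hBB h).trans hBB)
      · exact hy ((hsol _ _ hBB h).trans hBC)
      · exact hyO (by rw [hsol _ _ hCC h, mul_comm, hAC]; exact hB')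
      · exact hy ((hsol _ _ hCC h).trans ((mul_comm _ _).trans hBC))
      · exact hy1 ((hsol _ _ hCC h).trans hCC))
    have hyne : (y : G) ≠ 1 := fun e => hy1 (Subtype.ext e)
    have hX : ∀ χ ∈ D.X, (χ : G → ℂ) t = (D.v χ : ℂ) ∧ (χ : G → ℂ) y = (D.v χ : ℂ) := fun χ hχ => by
      constructor
      · rw [irr_apply_eq_of_isConj htc]
        exact D.apply_X H hM hχ ⟨1, mul_one _, Commute.one_right _, ⟨1, by rw [pow_one, hp2, ht2]⟩,
          hreg1⟩ ht0P ht1
      · exact D.apply_X H hM hχ ⟨1, mul_one _, Commute.one_right _, hpow y.2, hreg1⟩ y.2 hyne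
    refine ⟨fun _ => 1, -3, fun χ hχ => ?_, rfl, Or.inr ⟨hp2, rfl⟩, ?_, ?_⟩
    · rw [(hX χ hχ).1, ← sq, hsq χ hχ, Int.cast_one]
    · have h := D.norm_eq
      rw [hd] at h
      push_cast at h
      have h1 : ∑ χ ∈ D.X, D.v χ ^ 2 = ∑ χ ∈ D.X, (1 : ℤ) := sum_congr rfl fun χ hχ => by
        have := hsq χ hχ
        exact_mod_cast this
      linarith
    · rw [D.sum_block] at hpair
      rw [← hpair]
      congr 1
      · refine sum_congr rfl fun χ hχ => ?_
        obtain ⟨e1, e2⟩ := hX χ hχ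
        have hv : (D.v χ : ℂ) ≠ 0 := Int.cast_ne_zero.2 (D.v_ne_zero H hM hχ)
        rw [e1, e2, Int.cast_one, one_pow]
        have hf := apply_one_ne_zero_of_isIrr χ.2
        field_simp
        linear_combination (-(D.v χ : ℂ) ^ 2 - 1) * hsq χ hχ
      · have hf := apply_one_ne_zero_of_isIrr η0.2
        have hs : (D.s : ℂ) ^ 2 = 1 := by rcases D.hs with e | e <;> simp [e]
        have hs0 : (D.s : ℂ) ≠ 0 := by rcases D.hs with e | e <;> simp [e]
        refine mul_left_cancel₀ (three_ne_zero (α := ℂ)) ?_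
        rw [D.sum_Y_mul_three H]
        have hval : ∀ ψ ∈ univ.filter (fun ψ : ↥(P : Subgroup G) →* ℂˣ => ψ ≠ 1),
            (D.ζ ψ : G → ℂ) t * (D.ζ ψ : G → ℂ) t / (D.ζ ψ : G → ℂ) 1 * (D.ζ ψ : G → ℂ) y =
              -(D.s : ℂ) / (η0 : G → ℂ) 1 *
                ((3 * Ψ ψ y) + 2 * ((ψ A : ℂ) + (ψ B : ℂ) + (ψ C : ℂ)) * Ψ ψ y) := by
          intro ψ hψ
          have hψ1 := (mem_filter.1 hψ).2
          rw [irr_apply_eq_of_isConj htc (χ := D.ζ ψ)]
          rw [hdeg _ (D.mem_Y.2 ⟨ψ, hψ1, rfl⟩),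
            D.apply_ζ H hM hψ1 A ⟨1, mul_one _, Commute.one_right _, hpow A.2, hreg1⟩ ht1,
            D.apply_ζ H hM hψ1 y ⟨1, mul_one _, Commute.one_right _, hpow y.2, hreg1⟩ hyne,
            horb ψ hψ1, horb ψ hψ1, hd, Int.cast_zero]
          have hΨA : Ψ ψ A = (ψ A : ℂ) + (ψ B : ℂ) + (ψ C : ℂ) := rfl
          rw [hΨA]
          have eAA : (ψ A : ℂ) * (ψ A : ℂ) = 1 := by
            rw [← Units.val_mul, ← map_mul, hAA, map_one, Units.val_one]
          have eBB : (ψ B : ℂ) * (ψ B : ℂ) = 1 := by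
            rw [← Units.val_mul, ← map_mul, hBB, map_one, Units.val_one]
          have eCC : (ψ C : ℂ) * (ψ C : ℂ) = 1 := by
            rw [← Units.val_mul, ← map_mul, hCC, map_one, Units.val_one]
          have eAB : (ψ A : ℂ) * (ψ B : ℂ) = (ψ C : ℂ) := by
            rw [← Units.val_mul, ← map_mul, hAB]
          have eAC : (ψ A : ℂ) * (ψ C : ℂ) = (ψ B : ℂ) := by
            rw [← Units.val_mul, ← map_mul, hAC]
          have eBC : (ψ B : ℂ) * (ψ C : ℂ) = (ψ A : ℂ) := by
            rw [← Units.val_mul, ← map_mul, hBC]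
          have hsqA : ((ψ A : ℂ) + (ψ B : ℂ) + (ψ C : ℂ)) ^ 2 =
              3 + 2 * ((ψ A : ℂ) + (ψ B : ℂ) + (ψ C : ℂ)) := by
            linear_combination eAA + eBB + eCC + 2 * eAB + 2 * eAC + 2 * eBC
          field_simp
          linear_combination (-(D.s : ℂ) ^ 3 * Ψ ψ y) * hsqA +
            (-(D.s : ℂ) * Ψ ψ y * (3 + 2 * ((ψ A : ℂ) + (ψ B : ℂ) + (ψ C : ℂ)))) * hs
        have hne : ∀ (a : ↥(P : Subgroup G)), a * a = 1 → IsConj t (a : G) →
            ∀ k : ↥(Subgroup.normalizer ((P : Subgroup G) : Set G)),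
              a * ⟨(k : G)⁻¹ * y * k, inv_conj_mem P k y⟩ ≠ 1 := by
          intro a ha hta k e
          have e1 : (k : G)⁻¹ * y * k = (a : G) := by
            have := congrArg (a * ·) e
            simp only [← mul_assoc, ha, one_mul, mul_one] at this
            exact congrArg Subtype.val this
          exact hyO (hta.trans (isConj_iff.2 ⟨(k : G), by rw [← e1]; group⟩))
        have hB' : IsConj t (B : G) := htc.trans (isConj_iff.2 ⟨n⁻¹, by simp [hB, hA, n']⟩)
        have hC' : IsConj t (C : G) :=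
          htc.trans (isConj_iff.2 ⟨(n * n)⁻¹, by simp [hC, hA, n', mul_assoc]⟩)
        have hprod : ∀ a : ↥(P : Subgroup G), a * a = 1 → IsConj t (a : G) →
            ∑ ψ ∈ univ.filter (fun ψ : ↥(P : Subgroup G) →* ℂˣ => ψ ≠ 1),
              (ψ a : ℂ) * Ψ ψ y = -3 := by
          intro a ha hta
          simp only [Ψ, mul_add, twist_apply, ← Units.val_mul, ← map_mul, sum_add_distrib]
          have h0 : a * y ≠ 1 := fun e => by
            have := congrArg (a * ·) e
            simp only [← mul_assoc, ha, one_mul, mul_one] at this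
            exact hyO (this ▸ hta)
          rw [sum_ne_one_apply h0, sum_ne_one_apply (hne a ha hta n'),
            sum_ne_one_apply (hne a ha hta (n' * n'))]
          norm_num
        rw [sum_congr rfl hval, ← mul_sum, sum_add_distrib, ← mul_sum]
        simp only [mul_assoc (2 : ℂ), ← mul_sum, add_mul, sum_add_distrib]
        rw [hsumΨ y hy1, hprod A hAA htc, hprod B hBB hB', hprod C hCC hC']
        push_cast
        field_simp
        linear_combination (-9 : ℂ) * hs
  · obtain ⟨y, hy1⟩ : ∃ y : ↥(P : Subgroup G), y ≠ 1 := by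
      by_contra hc
      push Not at hc
      have hlt := H.lt
      have : Subsingleton ↥(P : Subgroup G) := ⟨fun a b => (hc a).trans (hc b).symm⟩
      rw [Nat.card_eq_one_iff_unique.2 ⟨this, ⟨1⟩⟩] at hlt
      omega
    have hyne : (y : G) ≠ 1 := fun e => hy1 (Subtype.ext e)
    obtain ⟨K, hKC, hKn, hKp, -, hKreg, -⟩ :=
      exists_complement_centralizer P y.2 (H.frob _ y.2 hyne).le
    obtain ⟨j, hj⟩ := hpow y.2
    have hpair := sum_principal_sq_mul_eq_zero hM hj hyne K hKC hKn hKp hKreg ht (by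
      rintro k hk u ⟨hu, hv⟩
      have huu : ∀ w, IsConj t w → w * w = 1 := fun w hw => by
        obtain ⟨g, rfl⟩ := isConj_iff.1 hw
        have h := pow_orderOf_eq_one t
        rw [ht, pow_two] at h
        rw [show g * t * g⁻¹ * (g * t * g⁻¹) = g * (t * t) * g⁻¹ by group, h]; group
      have hv2 := huu _ hv
      have hinv : u * ((y : G) * k) * u⁻¹ = ((y : G) * k)⁻¹ := by
        rw [inv_eq_of_mul_eq_one_right (huu u hu), eq_inv_iff_mul_eq_one]
        simpa [mul_assoc] using hv2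
      have hpp : IsPPart p ((y : G) * k) y := isPPart_mul
        (Subgroup.mem_centralizer_singleton_iff.1 (hKC hk)).symm ⟨j, hj⟩
        fun h => hKp (h.trans (Subgroup.orderOf_dvd_natCard _ hk))
      have hconj := Blocks.IsPPart.conj hpp u
      rw [hinv] at hconj
      have hyy := sq_eq_one_of_conj_inv H y.2 (Blocks.IsPPart.unique hconj (Blocks.IsPPart.inv hpp))
      have h2 : orderOf (y : G) ∣ 2 := orderOf_dvd_of_pow_eq_one (by rw [pow_two, hyy])
      rcases j with _ | j
      · exact hyne (orderOf_eq_one_iff.1 (by simpa using hj))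
      · rw [hj] at h2
        exact hp2 ((Nat.prime_dvd_prime_iff_eq hp.out Nat.prime_two).1
          ((dvd_pow_self p (Nat.succ_ne_zero j)).trans h2)))
    have htreg : ¬ p ∣ orderOf t := by
      rw [ht]
      exact fun h => hp2 ((Nat.prime_dvd_prime_iff_eq hp.out Nat.prime_two).1 h)
    choose a ha using fun χ : IrrCharacter G => BlockLocal.exists_int_apply_involution χ ht
    refine ⟨fun χ => D.v χ * a χ, D.s * a η0, fun χ _ => by push_cast; rw [ha], ?_,
      Or.inl ⟨hp2, by push_cast; rw [ha]⟩, ?_, ?_⟩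
    · have h1 := ha (trivIrr G)
      rw [trivIrr_apply] at h1
      simp only [D.v_trivIrr H, one_mul]
      exact_mod_cast h1.symm
    · have h := D.sum_X_mul hM hη0 htreg
      simp only [hd, Int.cast_zero, mul_zero, zero_add, ha] at h
      have h' : (((∑ χ ∈ D.X, D.v χ * a χ) + D.s * a η0 : ℤ) : ℂ) = ((0 : ℤ) : ℂ) := by
        push_cast
        linear_combination h
      exact Int.cast_injective h'
    · rw [D.sum_block] at hpair
      rw [← hpair]
      congr 1
      · refine sum_congr rfl fun χ hχ => ?_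
        rw [D.apply_X H hM hχ ⟨1, mul_one _, Commute.one_right _, ⟨j, hj⟩, hreg1⟩ y.2 hyne, ha]
        have hv : (D.v χ : ℂ) ≠ 0 := Int.cast_ne_zero.2 (D.v_ne_zero H hM hχ)
        have hf := apply_one_ne_zero_of_isIrr χ.2
        push_cast
        field_simp
      · have hf := apply_one_ne_zero_of_isIrr η0.2
        have hs : (D.s : ℂ) ^ 2 = 1 := by rcases D.hs with e | e <;> simp [e]
        have hs0 : (D.s : ℂ) ≠ 0 := by rcases D.hs with e | e <;> simp [e]
        refine mul_left_cancel₀ (three_ne_zero (α := ℂ)) ?_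
        rw [D.sum_Y_mul_three H, sum_congr rfl (g := fun ψ =>
          -(D.s : ℂ) * ((a η0 : ℂ) * (a η0 : ℂ) / (η0 : G → ℂ) 1) * Ψ ψ y) (fun ψ hψ => by
            have hψ1 := (mem_filter.1 hψ).2
            have hmem := D.mem_Y.2 ⟨ψ, hψ1, rfl⟩
            rw [hdeg _ hmem, D.apply_Y_eq hM hmem hη0 htreg, ha,
              D.apply_ζ H hM hψ1 y ⟨1, mul_one _, Commute.one_right _, ⟨j, hj⟩, hreg1⟩ hyne,
              horb ψ hψ1, hd, Int.cast_zero]
            ring), ← mul_sum, hsumΨ y hy1]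
        push_cast
        field_simp

end Data

end CfsgLib.BrauerCharacters.AbelianPrincipal
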