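import Cfsg.Agent.Lib.BrauerCharacters.AbelianPrincipalData
import Cfsg.Agent.Lib.BrauerCharacters.SectionCount

/-!
# The normaliser acting with order three
-/

set_option autoImplicit false

namespace CfsgLib.BrauerCharacters.AbelianPrincipal

open Cfsg CfsgLib.CharTheory CfsgLib.Blocks Finset
open scoped ComplexConjugate IsMulCommutative Classical

variable {G : Type*} [Group G] [Fintype G] {p : ℕ} [hp : Fact p.Prime]
variable {M : Ideal AlgInt} [M.IsPrime]
variable {P : Sylow p G} [IsMulCommutative P]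

theorem eq_or_eq_of_card_two {Y : Finset (IrrCharacter G)} (hY : Y.card = 2)
    {a b c : IrrCharacter G} (ha : a ∈ Y) (hb : b ∈ Y) (hc : c ∈ Y) (hab : a ≠ b) :
    c = a ∨ c = b := by
  by_contra h
  rw [not_or] at h
  have : ({a, b, c} : Finset (IrrCharacter G)) ⊆ Y := by simp [insert_subset_iff, ha, hb, hc]
  have h3 := card_le_card this
  rw [card_eq_three.2 ⟨a, b, c, hab, Ne.symm h.1, Ne.symm h.2, rfl⟩, hY] at h3
  omega

theorem exists_data_d_zero (H : Hyp P 3) (hM : IsPModular p M) :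
    ∃ D : Data M P 3, D.d = 0 := by
  obtain ⟨D⟩ := nonempty_data (M := M) H hM
  by_cases hd : D.d = 0
  · exact ⟨D, hd⟩
  have hr := D.card_Y_mul H
  have hlt := H.lt
  have hnorm := D.norm_eq
  have htriv := D.trivIrr_mem_X H
  push_cast at hnorm
  have hsplit : ∑ χ ∈ D.X, D.v χ ^ 2 = 1 + ∑ χ ∈ D.X.erase (trivIrr G), D.v χ ^ 2 := by
    rw [← add_sum_erase _ _ htriv, D.v_trivIrr H, one_pow]
  have hnn : 0 ≤ ∑ χ ∈ D.X.erase (trivIrr G), D.v χ ^ 2 := sum_nonneg fun χ _ => sq_nonneg _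
  have hr2 : (2 : ℤ) ≤ D.Y.card := by
    exact_mod_cast (show 2 ≤ D.Y.card by omega)
  have hds : D.d = -D.s := by
    rcases lt_or_gt_of_ne hd with h | h
    · have : D.d = -1 := by
        by_contra h'
        have h'' : D.d ≤ -2 := by omega
        rcases D.hs with e | e <;> rw [e] at hnorm <;>
          nlinarith [mul_le_mul_of_nonneg_right hr2 (sq_nonneg D.d)]
      rcases D.hs with e | e <;> rw [e, this] at hnorm ⊢ <;> omega
    · have : D.d = 1 := by
        by_contra h'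
        have h'' : 2 ≤ D.d := by omega
        rcases D.hs with e | e <;> rw [e] at hnorm <;>
          nlinarith [mul_le_mul_of_nonneg_right hr2 (sq_nonneg D.d)]
      rcases D.hs with e | e <;> rw [e, this] at hnorm ⊢ <;> omega
  have hrest : ∑ χ ∈ D.X.erase (trivIrr G), D.v χ ^ 2 + (D.Y.card : ℤ) = 4 := by
    rw [hsplit, hds] at hnorm
    rcases D.hs with e | e <;> rw [e] at hnorm <;> push_cast at hnorm <;> linarith
  -- four exceptional characters are impossible by degree, three by the order of `P`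
  have hY2 : D.Y.card = 2 := by
    have hle : D.Y.card ≤ 4 := by exact_mod_cast (show (D.Y.card : ℤ) ≤ 4 by linarith)
    by_contra hne
    rcases (show D.Y.card = 3 ∨ D.Y.card = 4 by omega) with h3 | h4
    · have h10 : Nat.card (P : Subgroup G) = 10 := by omega
      obtain ⟨n, hn⟩ := IsPGroup.iff_card.1 P.2
      rw [h10] at hn
      have h2 : p = 2 := ((Nat.prime_dvd_prime_iff_eq Nat.prime_two hp.out).1
        (Nat.prime_two.dvd_of_dvd_pow (hn ▸ (by norm_num : 2 ∣ 10)))).symm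
      have h5 : (5 : ℕ) ∣ p := (by norm_num : Nat.Prime 5).dvd_of_dvd_pow (hn ▸ (by norm_num : 5 ∣ 10))
      rw [h2] at h5
      norm_num at h5
    · have hempty : D.X.erase (trivIrr G) = ∅ := by
        by_contra hc
        obtain ⟨χ, hχ⟩ := nonempty_iff_ne_empty.2 hc
        have h1 := sq_pos_of_ne_zero (D.v_ne_zero H hM (mem_of_mem_erase hχ))
        have h2 := single_le_sum (fun χ _ => sq_nonneg (D.v χ)) hχ
        rw [h4] at hrest
        push_cast at hrest
        linarith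
      obtain ⟨η, hη⟩ : D.Y.Nonempty := card_pos.1 (by omega)
      have h := D.sum_X_mul hM hη (g := 1) (by rw [orderOf_one]; exact hp.out.not_dvd_one)
      rw [← add_sum_erase _ _ htriv, hempty, sum_empty, D.v_trivIrr H, trivIrr_apply, h4, hds,
        (charDegree_spec η).1] at h
      have h' : ((4 : ℤ) * (-D.s) + D.s) * (charDegree (η : G → ℂ) : ℤ) + (1 * 1 + 0) = 0 := by
        apply Int.cast_injective (α := ℂ)
        push_cast at h ⊢
        linear_combination h
      rcases D.hs with e | e <;> rw [e] at h' <;> omega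
  obtain ⟨η1, η2, hne, hY⟩ := card_eq_two.1 hY2
  set ζ' : (↥(P : Subgroup G) →* ℂˣ) → IrrCharacter G := fun ψ =>
    if D.ζ ψ = η1 then η2 else η1 with hζ'
  have hmem : ∀ {ψ}, ψ ≠ 1 → D.ζ ψ = η1 ∨ D.ζ ψ = η2 := fun {ψ} h => by
    simpa [hY] using D.mem_Y.2 ⟨ψ, h, rfl⟩
  have hζY : ∀ ψ, ζ' ψ ∈ D.Y := fun ψ => by
    simp only [hζ', hY]; split_ifs <;> simp
  have hss : D.s * D.s = 1 := by rcases D.hs with h | h <;> rw [h] <;> norm_num
  refine ⟨{
    v := fun χ => if χ ∈ D.Y then 0 else D.v χ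
    s := -D.s
    d := 0
    ζ := ζ'
    hs := by rcases D.hs with e | e <;> simp [e]
    mem := fun ψ _ => mem_blockFinset.1 (D.Y_subset (hζY ψ))
    hu := fun ψ hψ χ hχ => by
      rw [D.hu ψ hψ χ hχ]
      by_cases hY' : χ ∈ D.Y
      · rw [if_pos hY']
        obtain ⟨φ, hφ, hφχ⟩ := D.mem_Y.1 hY'
        rw [show D.v χ = D.d from hφχ ▸ D.hvζ φ hφ, hds]
        have hc : χ = η1 ∨ χ = η2 := by simpa [hY] using hY'
        rcases hc with rfl | rfl <;> rcases hmem hψ with e | e <;> simp [hζ', e, hne, hne.symm]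
      · rw [if_neg hY', if_neg (fun e => hY' (by rw [e]; exact D.mem_Y.2 ⟨ψ, hψ, rfl⟩)),
          if_neg (fun e => hY' (by rw [e]; exact hζY ψ))]
    hζ := fun ψ φ hψ hφ => by
      rw [← D.hζ ψ φ hψ hφ]
      rcases hmem hψ with e | e <;> rcases hmem hφ with e' | e' <;>
        simp [hζ', e, e', hne, hne.symm]
    hvζ := fun ψ _ => if_pos (hζY ψ)
    hnorm := by
      rw [mul_zero, add_zero]
      have h := D.hnorm
      rw [D.sum_block] at h ⊢
      rw [sum_eq_zero (s := D.Y) (fun χ hχ => by rw [if_pos hχ]; norm_num), add_zero,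
        sum_congr rfl (g := fun χ => D.v χ ^ 2) (fun χ hχ => by
          rw [if_neg ((mem_sdiff.1 hχ).2)]) (s₁ := D.X)]
      rw [sum_congr rfl (g := fun _ => D.d ^ 2) (fun η hη => by
        obtain ⟨φ, hφ, rfl⟩ := D.mem_Y.1 hη
        rw [D.hvζ φ hφ]) (s₁ := D.Y), sum_const, nsmul_eq_mul, hY2, hds] at h
      push_cast at h
      linear_combination h }, rfl⟩

variable (H : Hyp P 3)
include H

/-- A generator of `N` modulo `C`. -/
theorem exists_three_cosets :
    ∃ n ∈ Subgroup.normalizer ((P : Subgroup G) : Set G),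
      n ∉ Subgroup.centralizer ((P : Subgroup G) : Set G) ∧
      n * n ∉ Subgroup.centralizer ((P : Subgroup G) : Set G) ∧
      n * n * n ∈ Subgroup.centralizer ((P : Subgroup G) : Set G) ∧
      ∀ g ∈ Subgroup.normalizer ((P : Subgroup G) : Set G),
        g ∈ Subgroup.centralizer ((P : Subgroup G) : Set G) ∨
        n⁻¹ * g ∈ Subgroup.centralizer ((P : Subgroup G) : Set G) ∨
        (n * n)⁻¹ * g ∈ Subgroup.centralizer ((P : Subgroup G) : Set G) := by
  set N := Subgroup.normalizer ((P : Subgroup G) : Set G) with hN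
  set C := Subgroup.centralizer ((P : Subgroup G) : Set G) with hC
  haveI hn : (C.subgroupOf N).Normal := ⟨fun c hc g => by
    rw [Subgroup.mem_subgroupOf, hC, Subgroup.mem_centralizer_iff] at hc ⊢
    intro q hq
    have h := hc _ ((Subgroup.mem_normalizer_iff.1 (inv_mem g.2) q).1 hq)
    simp only [inv_inv] at h
    simp only [Subgroup.coe_mul, Subgroup.coe_inv]
    calc q * ((g : G) * c * (g : G)⁻¹) = g * (((g : G)⁻¹ * q * g) * c) * (g : G)⁻¹ := by group
      _ = g * (c * ((g : G)⁻¹ * q * g)) * (g : G)⁻¹ := by rw [h]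
      _ = (g : G) * c * (g : G)⁻¹ * q := by group⟩
  have hcard : Nat.card (N ⧸ C.subgroupOf N) = 3 := H.relIndex
  haveI : Finite (N ⧸ C.subgroupOf N) := Nat.finite_of_card_ne_zero (by omega)
  haveI : Fact (Nat.Prime 3) := ⟨Nat.prime_three⟩
  haveI : Nontrivial (N ⧸ C.subgroupOf N) := Finite.one_lt_card_iff_nontrivial.1 (by omega)
  obtain ⟨q, hq⟩ := exists_ne (1 : N ⧸ C.subgroupOf N)
  obtain ⟨n, rfl⟩ := QuotientGroup.mk'_surjective (C.subgroupOf N) q
  have hord : orderOf (QuotientGroup.mk' (C.subgroupOf N) n) = 3 := by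
    have h := orderOf_dvd_natCard (QuotientGroup.mk' (C.subgroupOf N) n)
    rw [hcard] at h
    exact ((Nat.dvd_prime Nat.prime_three).1 h).resolve_left fun h1 => hq (orderOf_eq_one_iff.1 h1)
  have hmem : ∀ g : N, (g : G) ∈ C ↔ QuotientGroup.mk' (C.subgroupOf N) g = 1 := fun g =>
    ((QuotientGroup.eq_one_iff (N := C.subgroupOf N) g).trans Subgroup.mem_subgroupOf).symm
  refine ⟨n, n.2, fun h => hq ((hmem n).1 h), fun h => ?_, ?_, fun g hg => ?_⟩
  · have h1 := (hmem (n ^ 2)).1 (by simpa [pow_two] using h)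
    rw [map_pow] at h1
    have h2 := orderOf_dvd_of_pow_eq_one h1
    rw [hord] at h2
    norm_num at h2
  · have h1 : QuotientGroup.mk' (C.subgroupOf N) (n ^ 3) = 1 := by
      rw [map_pow, ← hord, pow_orderOf_eq_one]
    simpa [pow_succ] using (hmem (n ^ 3)).2 h1
  · set a := QuotientGroup.mk' (C.subgroupOf N) n with ha
    have hgen : ∀ x : N ⧸ C.subgroupOf N, x ∈ Subgroup.zpowers a := fun x =>
      mem_zpowers_of_prime_card hcard hq
    obtain ⟨i, hi⟩ := (isOfFinOrder_of_finite a).mem_zpowers_iff_mem_range_orderOf.1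
      (hgen (QuotientGroup.mk' (C.subgroupOf N) ⟨g, hg⟩)) |> Finset.mem_image.1
    obtain ⟨hlt, he⟩ := hi
    rw [Finset.mem_range, hord] at hlt
    interval_cases i
    · left
      rw [pow_zero] at he
      exact (hmem ⟨g, hg⟩).2 he.symm
    · right; left
      rw [pow_one] at he
      have := (hmem (n⁻¹ * ⟨g, hg⟩)).2 (by rw [map_mul, map_inv, ← ha, ← he, inv_mul_cancel])
      simpa using this
    · right; right
      rw [pow_two] at he
      have := (hmem ((n * n)⁻¹ * ⟨g, hg⟩)).2 (by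
        rw [map_mul, map_inv, map_mul, ← ha, ← he, inv_mul_cancel])
      simpa using this

/-- No element of `P` other than an involution is conjugate to its inverse. -/
theorem sq_eq_one_of_conj_inv {y g : G} (hy : y ∈ (P : Subgroup G)) (h : g * y * g⁻¹ = y⁻¹) :
    y * y = 1 := by
  obtain ⟨k, hk, e⟩ := P.conj_eq_normalizer_conj_of_mem y g⁻¹ hy
    (by rw [inv_inv, h]; exact inv_mem hy)
  rw [inv_inv, h] at e
  obtain ⟨n, -, -, -, hn3, hcos⟩ := exists_three_cosets H
  have h2 : k * y⁻¹ * k⁻¹ = y := by rw [e]; group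
  have h2' : k * y * k⁻¹ = y⁻¹ := by
    have h4 := congrArg (·⁻¹) h2
    simpa [mul_assoc] using h4
  have hk3 : k * k * k ∈ Subgroup.centralizer ((P : Subgroup G) : Set G) := by
    set N := Subgroup.normalizer ((P : Subgroup G) : Set G)
    set C := Subgroup.centralizer ((P : Subgroup G) : Set G)
    haveI : (C.subgroupOf N).Normal := ⟨fun c hc g => by
      rw [Subgroup.mem_subgroupOf, Subgroup.mem_centralizer_iff] at hc ⊢
      intro q hq
      have h := hc _ ((Subgroup.mem_normalizer_iff.1 (inv_mem g.2) q).1 hq)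
      simp only [inv_inv] at h
      simp only [Subgroup.coe_mul, Subgroup.coe_inv]
      calc q * ((g : G) * c * (g : G)⁻¹) = g * (((g : G)⁻¹ * q * g) * c) * (g : G)⁻¹ := by group
        _ = g * (c * ((g : G)⁻¹ * q * g)) * (g : G)⁻¹ := by rw [h]
        _ = (g : G) * c * (g : G)⁻¹ * q := by group⟩
    have h3 := Subgroup.pow_index_mem (C.subgroupOf N) (⟨k, hk⟩ : N)
    rw [show (C.subgroupOf N).index = 3 from H.relIndex, Subgroup.mem_subgroupOf] at h3
    simpa [pow_succ] using h3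
  have h3 := Subgroup.mem_centralizer_iff.1 hk3 y hy
  have h5 : k * k * k * y * (k * k * k)⁻¹ = y⁻¹ := by
    calc k * k * k * y * (k * k * k)⁻¹ = k * (k * (k * y * k⁻¹) * k⁻¹) * k⁻¹ := by group
      _ = y⁻¹ := by rw [h2', h2, h2']
  rw [← h3, mul_inv_cancel_right] at h5
  exact eq_inv_iff_mul_eq_one.1 h5

omit H

/-- In `C(y) = K P` a `p`-element `k q` is conjugate to `q`. -/
theorem isConj_of_decomp {y : G} (hy : y ∈ (P : Subgroup G)) (K : Subgroup G)
    (hKC : K ≤ Subgroup.centralizer ({y} : Set G))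
    (hKn : ∀ c ∈ Subgroup.centralizer ({y} : Set G), ∀ k ∈ K, c * k * c⁻¹ ∈ K)
    (hKp : ¬ p ∣ Nat.card K)
    (hdec : ∀ c ∈ Subgroup.centralizer ({y} : Set G), ∃ k ∈ K, ∃ q ∈ (P : Subgroup G), c = k * q)
    {k q : G} (hk : k ∈ K) (hq : q ∈ (P : Subgroup G)) (hord : ∃ j, orderOf (k * q) = p ^ j) :
    IsConj (k * q) q := by
  set C := Subgroup.centralizer ({y} : Set G) with hC
  have hPC : (P : Subgroup G) ≤ C := fun w hw => Subgroup.mem_centralizer_singleton_iff.2
    (congrArg Subtype.val (mul_comm' (⟨w, hw⟩ : P) ⟨y, hy⟩))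
  have hkq : k * q ∈ C := C.mul_mem (hKC hk) (hPC hq)
  obtain ⟨j, hj⟩ := hord
  obtain ⟨Q, hQ⟩ := (IsPGroup.of_card (p := p) (n := j)
    (G := ↥(Subgroup.zpowers (⟨k * q, hkq⟩ : C)))
    (by rw [Nat.card_zpowers, Subgroup.orderOf_mk, hj])).exists_le_sylow
  obtain ⟨c, hc⟩ := MulAction.exists_smul_eq C Q (P.subtype hPC)
  have hmem : (c : G) * (k * q) * (c : G)⁻¹ ∈ (P : Subgroup G) := by
    have h1 : c * ⟨k * q, hkq⟩ * c⁻¹ ∈ ((P.subtype hPC : Sylow p C) : Subgroup C) := by
      rw [← hc]; exact ⟨_, hQ (Subgroup.mem_zpowers _), rfl⟩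
    simpa [Sylow.coe_subtype, Subgroup.mem_subgroupOf] using h1
  obtain ⟨k', hk', q', hq', hcd⟩ := hdec c c.2
  set q1 := (c : G) * (k * q) * (c : G)⁻¹ with hq1
  -- `q1 * q⁻¹` lies in `K ∩ P`
  have hcomm : q' * q * q'⁻¹ = q :=
    mul_inv_eq_iff_eq_mul.2 (congrArg Subtype.val (mul_comm' (⟨q', hq'⟩ : P) ⟨q, hq⟩))
  have hK : q1 * q⁻¹ ∈ K := by
    have h1 : q1 * q⁻¹ = k' * (q' * k * q'⁻¹) * ((q' * q * q'⁻¹) * k'⁻¹ * q⁻¹) := by
      rw [hq1, hcd]; group
    rw [h1, hcomm]
    exact K.mul_mem (K.mul_mem hk' (hKn q' (hPC hq') k hk)) (hKn q (hPC hq) _ (inv_mem hk'))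
  have hPm : q1 * q⁻¹ ∈ (P : Subgroup G) := mul_mem hmem (inv_mem hq)
  have h1 : q1 * q⁻¹ = 1 := by
    rw [← orderOf_eq_one_iff]
    obtain ⟨i, hi⟩ := (IsPGroup.iff_orderOf.1 P.2) ⟨_, hPm⟩
    rw [Subgroup.orderOf_mk] at hi
    rcases i with _ | i
    · rw [hi, pow_zero]
    · exact absurd ((dvd_pow_self p (Nat.succ_ne_zero i)).trans
        (hi ▸ Subgroup.orderOf_dvd_natCard _ hK)) hKp
  exact isConj_iff.2 ⟨c, mul_inv_eq_one.1 h1⟩

end CfsgLib.BrauerCharacters.AbelianPrincipal
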