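import Cfsg.Agent.Lib.BrauerPairs.SectMajor
import Cfsg.Agent.Lib.BlockSections.Major
import Cfsg.Agent.Lib.BrauerPairs.BridgeDefect
import Cfsg.Agent.Lib.BrauerPairs.AbelianDefect
import Cfsg.Agent.Lib.BrauerPairs.NormalP
import Cfsg.Agent.Lib.Blocks.Defect

/-!
# Subsections at the centre of a defect group and the height bound
-/

set_option autoImplicit false

namespace CfsgLib.BrauerCharacters

open Cfsg CfsgLib.BrauerPairs Finset CfsgLib.Blocks CfsgLib.BlockLocal
open scoped ComplexConjugate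

variable {G : Type*} [Group G] [Fintype G] {p : ℕ} [hp : Fact p.Prime] {M : Ideal AlgInt}
  [hMp : M.IsPrime]

/-- The diagonal inequality over subsections with pairwise different classes. -/
theorem sum_subNorm_le_one (hM : IsPModular p M) (χ : IrrCharacter G) (S : Finset G)
    (hS : ∀ y ∈ S, ∃ k : ℕ, orderOf y = p ^ k)
    [∀ y : G, Fintype (Subgroup.centralizer ({y} : Set G))]
    (b : ∀ y : G, Set (IrrCharacter (Subgroup.centralizer ({y} : Set G))))
    (hb : ∀ y ∈ S, IsPBlock M (b y))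
    (hinj : ∀ y ∈ S, ∀ y' ∈ S, ∀ x : G, x * y * x⁻¹ = y' →
      conjA x (subIdem M _ (b y)) = subIdem M _ (b y') → y = y') :
    ∑ y ∈ S, subNorm (Subgroup.centralizer ({y} : Set G)) p (cenElem y) (b y) χ ≤ 1 := by
  classical
  have hG : (0 : ℝ) < Nat.card G := Nat.cast_pos.2 Nat.card_pos
  refine le_of_mul_le_mul_left (a := (Nat.card G : ℝ)) ?_ hG
  rw [mul_one]
  set F : G → ℝ := fun y => ∑ g ∈ secSet p y, ‖(χ : G → ℂ) g‖ ^ 2 with hF
  have hF0 : ∀ y, 0 ≤ F y := fun y => sum_nonneg fun g _ => sq_nonneg _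
  have hclassF : ∀ c y : G, F (c * y * c⁻¹) = F y := fun c y =>
    sum_secSet_conj c y _ fun g => by rw [CharTheory.IsIrrCharacter.isClassFunction χ.2 g c]
  set cls : G → Finset G := fun y => univ.filter (IsConj y) with hcls
  set K := S.image cls with hK
  set W := K.biUnion id with hW
  have hWp : ∀ w ∈ W, ∃ k : ℕ, orderOf w = p ^ k := by
    intro w hw
    simp only [hW, hK, hcls, mem_biUnion, mem_image, id] at hw
    obtain ⟨_, ⟨y, hy, rfl⟩, hw⟩ := hw
    obtain ⟨c, rfl⟩ := isConj_iff.1 (mem_filter.1 hw).2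
    obtain ⟨k, hk⟩ := hS y hy
    exact ⟨k, by rw [← hk]; exact (MulAut.conj c).orderOf_eq y⟩
  have hle : ∑ w ∈ W, F w ≤ (Nat.card G : ℝ) := by
    rw [← sum_norm_sq_irr χ, ← sum_sum_secSet (p := p)]
    exact sum_le_sum_of_subset_of_nonneg (fun y hy => mem_filter.2 ⟨mem_univ _, hWp y hy⟩)
      fun y _ _ => hF0 y
  refine le_trans ?_ hle
  have hWdisj : (↑K : Set (Finset G)).PairwiseDisjoint id := by
    intro A hA A' hA' hne
    obtain ⟨a, -, rfl⟩ := mem_image.1 hA
    obtain ⟨a', -, rfl⟩ := mem_image.1 hA'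
    refine disjoint_left.2 fun w hw hw' => hne ?_
    have h : IsConj a a' := (mem_filter.1 hw).2.trans (mem_filter.1 hw').2.symm
    ext v
    simp only [hcls, mem_filter, mem_univ, true_and]
    exact ⟨fun hv => h.symm.trans hv, fun hv => h.trans hv⟩
  rw [hW, sum_biUnion hWdisj, mul_sum,
    ← sum_fiberwise_of_maps_to (g := cls) (t := K) fun y hy => mem_image_of_mem _ hy]
  refine sum_le_sum fun A hA => ?_
  obtain ⟨y₀, hy₀, rfl⟩ := mem_image.1 hA
  set C := Subgroup.centralizer ({y₀} : Set G) with hC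
  have hsum : ∑ w ∈ cls y₀, F w = (Nat.card G : ℝ) * subNorm C p (cenElem y₀) Set.univ χ := by
    rw [sum_congr rfl (g := fun _ => F y₀) (fun w hw => by
      obtain ⟨c, rfl⟩ := isConj_iff.1 (mem_filter.1 hw).2
      exact hclassF c y₀), sum_const, BlockLocal.card_conjClass_eq_index, nsmul_eq_mul, hF]
    simp only
    rw [sum_norm_secSet hC (hS y₀ hy₀) (yC := cenElem y₀) rfl, ← mul_assoc, ← Nat.cast_mul,
      Subgroup.index_mul_card]
  simp only [id]
  rw [hsum, ← mul_sum]
  refine mul_le_mul_of_nonneg_left ?_ hG.le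
  set T := S.filter fun y => cls y = cls y₀
  have hconj : ∀ y ∈ T, ∃ c, c * y * c⁻¹ = y₀ := by
    intro y hy
    have h := (mem_filter.1 hy).2
    have hm : y₀ ∈ cls y₀ := mem_filter.2 ⟨mem_univ _, IsConj.refl _⟩
    rw [← h] at hm
    exact isConj_iff.1 (mem_filter.1 hm).2
  choose! c hc using hconj
  have hcen : ∀ y ∈ T, C = cj (c y) (Subgroup.centralizer ({y} : Set G)) := by
    intro y hy
    ext a
    rw [mem_cj, hC, Subgroup.mem_centralizer_singleton_iff, Subgroup.mem_centralizer_singleton_iff,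
      ← hc y hy]
    constructor
    · intro h
      calc (c y)⁻¹ * a * c y * y = (c y)⁻¹ * (a * (c y * y * (c y)⁻¹)) * c y := by group
        _ = y * ((c y)⁻¹ * a * c y) := by rw [h]; group
    · intro h
      calc a * (c y * y * (c y)⁻¹) = c y * ((c y)⁻¹ * a * c y * y) * (c y)⁻¹ := by group
        _ = c y * y * (c y)⁻¹ * a := by rw [h]; group
  let b' : G → Set (IrrCharacter C) := fun y =>
    if hy : y ∈ T then compIrr (cjEquiv (c y) (hcen y hy)) '' (b y) else Set.univ
  have hb' : ∀ y ∈ T, subIdem M C (b' y) = conjA (c y) (subIdem M _ (b y)) := fun y hy => by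
    simp only [b', dif_pos hy]; exact subIdem_image _ _
  have hinj' : Set.InjOn b' ↑T := by
    intro y hy y' hy' h
    have h1 := hb' y hy
    rw [h, hb' y' hy'] at h1
    refine hinj y (mem_filter.1 hy).1 y' (mem_filter.1 hy').1 ((c y')⁻¹ * c y) ?_ ?_
    · calc (c y')⁻¹ * c y * y * ((c y')⁻¹ * c y)⁻¹
          = (c y')⁻¹ * (c y * y * (c y)⁻¹) * c y' := by group
        _ = y' := by rw [hc y hy, ← hc y' hy']; group
    · rw [conjA_mul, ← h1, conjA_inv_conjA]
  calc ∑ y ∈ T, subNorm (Subgroup.centralizer ({y} : Set G)) p (cenElem y) (b y) χ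
      = ∑ y ∈ T, subNorm C p (cenElem y₀) (b' y) χ := sum_congr rfl fun y hy => by
        simp only [b', dif_pos hy]
        exact (subNorm_image (hcen y hy) (hc y hy).symm (b y) χ).symm
    _ = ∑ B ∈ T.image b', subNorm C p (cenElem y₀) B χ :=
        (sum_image hinj' (f := fun B => subNorm C p (cenElem y₀) B χ)).symm
    _ ≤ _ := by
        refine sum_subNorm_le hM (commute_cenElem y₀) _ (fun B hB => ?_) χ
        obtain ⟨y, hy, rfl⟩ := mem_image.1 hB
        simp only [b', dif_pos hy]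
        exact isPBlock_image_compIrr _ (hb y (mem_filter.1 hy).1)

open CfsgLib.Jordan in
/-- The Galois average over a rational set of subsections of defect `D`. -/
theorem pow_height_mul_card_le (hM : IsPModular p M) (χ : IrrCharacter G) (S : Finset G)
    [∀ y : G, Fintype (Subgroup.centralizer ({y} : Set G))]
    (b : ∀ y : G, Set (IrrCharacter (Subgroup.centralizer ({y} : Set G)))) (D h : ℕ)
    (hint : ∀ y ∈ S, IsIntegral ℤ ((((p : ℝ) ^ D * subNorm (Subgroup.centralizer ({y} : Set G)) p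
      (cenElem y) (b y) χ / (p : ℝ) ^ h : ℝ)) : ℂ))
    (hb : ∀ y ∈ S, IsPBlock M (b y) ∧ blockDefect p (b y) = D)
    (hclosed : ∀ y ∈ S, ∀ t : ℕ, t.Coprime (Nat.card G) →
      y ^ t ∈ S ∧ subIdem M _ (b (y ^ t)) = subIdem M _ (b y))
    (hne : ∀ y ∈ S, subNorm (Subgroup.centralizer ({y} : Set G)) p (cenElem y) (b y) χ ≠ 0) :
    (S.card : ℝ) * (p : ℝ) ^ h ≤
      (p : ℝ) ^ D * ∑ y ∈ S, subNorm (Subgroup.centralizer ({y} : Set G)) p (cenElem y) (b y) χ := by
  classical
  set m := Nat.card G with hm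
  haveI : NeZero m := ⟨Nat.card_pos.ne'⟩
  haveI := cycField_isCyclotomic m
  haveI : FiniteDimensional ℚ (cycField m) := IsCyclotomicExtension.finite {m} ℚ _
  haveI : IsGalois ℚ (cycField m) := IsCyclotomicExtension.isGalois {m} ℚ _
  have hpow : ∀ (y : G) (ξ : IrrCharacter (Subgroup.centralizer ({y} : Set G))),
      centralVal (ξ : Subgroup.centralizer ({y} : Set G) → ℂ) (cenElem y) ^ m = 1 := fun y ξ =>
    by
      obtain ⟨c, hc⟩ : orderOf (cenElem y) ∣ m := by
        rw [← Subgroup.orderOf_coe]; exact orderOf_dvd_natCard _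
      rw [hc, pow_mul, (centralVal_spec ξ (commute_cenElem y)).1, one_pow]
  have hpow' : ∀ (y : G) (ξ : IrrCharacter (Subgroup.centralizer ({y} : Set G))),
      conj (centralVal (ξ : Subgroup.centralizer ({y} : Set G) → ℂ) (cenElem y)) ^ m = 1 :=
    fun y ξ => by rw [← map_pow, hpow, map_one]
  let X : G → cycField m := fun y => ∑ ξ ∈ blockFinset (b y), ∑ η ∈ blockFinset (b y),
    ((subMult _ χ ξ * subMult _ χ η * regEntry p (b y) ξ η : ℤ) : cycField m) *
      ((⟨_, mem_cycField_of_pow_eq_one (hpow y ξ)⟩ : cycField m) *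
        (⟨_, mem_cycField_of_pow_eq_one (hpow' y η)⟩ : cycField m))
  have hσX : ∀ (σ : cycField m ≃ₐ[ℚ] cycField m) (t : ℕ),
      (∀ z : cycField m, (z : ℂ) ^ m = 1 → (σ z : ℂ) = (z : ℂ) ^ t) → ∀ y : G,
      (σ (X y) : ℂ) = ∑ ξ ∈ blockFinset (b y), ∑ η ∈ blockFinset (b y),
        ((subMult _ χ ξ * subMult _ χ η * regEntry p (b y) ξ η : ℤ) : ℂ) *
          (centralVal (ξ : Subgroup.centralizer ({y} : Set G) → ℂ) (cenElem y ^ t) *
            conj (centralVal (η : Subgroup.centralizer ({y} : Set G) → ℂ) (cenElem y ^ t))) := by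
    intro σ t ht y
    simp only [X, map_sum, map_mul, map_intCast, AddSubmonoidClass.coe_finsetSum,
      MulMemClass.coe_mul]
    refine sum_congr rfl fun ξ _ => sum_congr rfl fun η _ => ?_
    rw [ht ⟨_, mem_cycField_of_pow_eq_one (hpow y ξ)⟩ (hpow y ξ),
      ht ⟨_, mem_cycField_of_pow_eq_one (hpow' y η)⟩ (hpow' y η), centralVal_pow_mul (commute_cenElem y),
      centralVal_pow_mul (commute_cenElem y), map_pow]
    simp
  have hXv : ∀ y ∈ S, (X y : ℂ) =
      (((p : ℝ) ^ D * subNorm (Subgroup.centralizer ({y} : Set G)) p (cenElem y) (b y) χ : ℝ) : ℂ) := by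
    intro y hy
    have h1 := hσX AlgEquiv.refl 1 (fun z _ => by simp) y
    rw [pow_one] at h1
    rw [Complex.ofReal_mul, Complex.ofReal_pow, Complex.ofReal_natCast, coe_subNorm, ← (hb y hy).2,
      pow_mul_subPair (commute_cenElem y)]
    exact h1
  have hperm : ∀ σ : cycField m ≃ₐ[ℚ] cycField m, σ (∏ y ∈ S, X y) = ∏ y ∈ S, X y := by
    intro σ
    obtain ⟨t, htc, ht⟩ := exists_galois_pow m σ
    rw [map_prod]
    have key : ∀ y ∈ S, σ (X y) = X (y ^ t) := by
      intro y hy
      obtain ⟨hyt, hidem⟩ := hclosed y hy t htc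
      apply Subtype.ext
      rw [hσX σ t ht y, hXv _ hyt, Complex.ofReal_mul, Complex.ofReal_pow, Complex.ofReal_natCast,
        ← (hb y hy).2]
      have hCC : Subgroup.centralizer ({y} : Set G) = Subgroup.centralizer ({y ^ t} : Set G) := by
        rw [← centralizer_zpowers_eq, ← centralizer_zpowers_eq]
        congr 2
        refine le_antisymm (Subgroup.zpowers_le.2 ?_)
          (Subgroup.zpowers_le.2 (Subgroup.npow_mem_zpowers y t))
        obtain ⟨u, hu⟩ := exists_pow_eq_self_of_coprime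
          (Nat.Coprime.coprime_dvd_right (orderOf_dvd_natCard y) htc)
        have h := Subgroup.npow_mem_zpowers (y ^ t) u
        rwa [hu] at h
      have hnorm := subNorm_congr (p := p) (M := M) hCC
        (y := cenElem y ^ t) (y' := cenElem (y ^ t))
        (by simp [cenElem]) (hb y hy).1 (hb _ hyt).1 hidem.symm χ
      rw [← hnorm, coe_subNorm, pow_mul_subPair fun c => (commute_cenElem y c).pow_left t]
    rw [prod_congr rfl key]
    refine prod_bij (fun y _ => y ^ t) (fun y hy => (hclosed y hy t htc).1)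
      (fun y _ y' _ h => (Nat.Coprime.pow_left_bijective (n := t) (G := G) htc.symm).1 h)
      (fun z hz => ?_) fun y _ => rfl
    obtain ⟨y, hy, rfl⟩ : ∃ y ∈ S, y ^ t = z := by
      have hinj : Set.InjOn (fun y : G => y ^ t) ↑S := fun y _ y' _ h =>
        (Nat.Coprime.pow_left_bijective (n := t) (G := G) htc.symm).1 h
      have himg : S.image (fun y => y ^ t) = S := Finset.eq_of_subset_of_card_le
        (fun z hz => by obtain ⟨y, hy, rfl⟩ := mem_image.1 hz; exact (hclosed y hy t htc).1)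
        (le_of_eq (card_image_of_injOn hinj).symm)
      rw [← himg] at hz
      simpa using mem_image.1 hz
    exact ⟨y, hy, rfl⟩
  let Y : G → cycField m := fun y => X y * ((p : cycField m) ^ h)⁻¹
  have hYv : ∀ y ∈ S, (Y y : ℂ) =
      (((p : ℝ) ^ D * subNorm (Subgroup.centralizer ({y} : Set G)) p (cenElem y) (b y) χ /
        (p : ℝ) ^ h : ℝ) : ℂ) := by
    intro y hy
    simp only [Y, MulMemClass.coe_mul, hXv y hy, IntermediateField.coe_inv, SubmonoidClass.coe_pow]
    push_cast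
    rw [div_eq_mul_inv]
  have hpY : ∀ σ : cycField m ≃ₐ[ℚ] cycField m, σ (∏ y ∈ S, Y y) = ∏ y ∈ S, Y y := by
    intro σ
    simp only [Y, prod_mul_distrib, prod_const]
    rw [map_mul, hperm, map_pow, map_inv₀, map_pow, map_natCast]
  have hnn : ∀ y ∈ S, 0 ≤ (p : ℝ) ^ D *
      subNorm (Subgroup.centralizer ({y} : Set G)) p (cenElem y) (b y) χ / (p : ℝ) ^ h :=
    fun y _ => div_nonneg (mul_nonneg (pow_nonneg (Nat.cast_nonneg p) _) (subNorm_nonneg _ _ _ _))
      (pow_nonneg (Nat.cast_nonneg p) _)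
  rw [mul_sum, ← le_div_iff₀ (pow_pos (Nat.cast_pos.2 hp.out.pos) h), sum_div]
  refine card_le_sum_of_one_le_prod S _ hnn ?_
  have hnorm := one_le_norm_of_fixed (P := ∏ y ∈ S, Y y) hpY (by
      rw [SubmonoidClass.coe_finsetProd]
      exact IsIntegral.prod _ fun y hy => hYv y hy ▸ hint y hy)
    (prod_ne_zero_iff.2 fun y hy h0 => by
      have := hYv y hy
      rw [h0, ZeroMemClass.coe_zero, eq_comm, Complex.ofReal_eq_zero, div_eq_zero_iff, mul_eq_zero]
        at this
      have hp0 : (p : ℝ) ≠ 0 := Nat.cast_ne_zero.2 hp.out.ne_zero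
      exact hne y hy ((this.resolve_right (pow_ne_zero _ hp0)).resolve_left (pow_ne_zero _ hp0)))
  rw [SubmonoidClass.coe_finsetProd, prod_congr rfl hYv, ← Complex.ofReal_prod, Complex.norm_real,
    Real.norm_of_nonneg (prod_nonneg hnn)] at hnorm
  exact hnorm
section Local

variable {k : Type*} [Field k] [CharP k p]

open MonoidAlgebra in
/-- A maximal pair is maximal for the block of the centraliser of a subgroup it centralises. -/
theorem isMaxPair_local_of_central {K P Q : Subgroup G} {b e f : MonoidAlgebra k G}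
    (hb : IsBlockIdem K b) (hP : IsMaxPair p K b P e) (hPC : P ≤ cenIn K Q)
    (hn : NormalLE p K Q f P e) : IsMaxPair p (cenIn K Q) f P e := by
  have hf := hn.1
  have hQP : Q ≤ P := hn.2.2.1
  have hQC : Q ≤ cenIn K Q := hQP.trans hPC
  have hCT : cenIn K Q ≤ pairStab K Q f := cenIn_le_pairStab hf
  refine PairOf.isMaxPair_of_card ((pairOf_local_iff hf le_rfl hCT hQP).2 ⟨hPC, hn⟩) ?_
  intro R' h' hR'
  obtain ⟨R₂, h₂, hR₂, hle₂⟩ := exists_isMaxPair_above hR'
  have hQR₂ : Q ≤ R₂ := (hR₂.isDefectIn hf.2.2).le_of_centralizing hf.2.2 hf.1 hQC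
    (inf_le_right.trans (Subgroup.centralizer_le_normalizer _)) inf_le_right
  obtain ⟨-, hn'⟩ := (pairOf_local_iff hf le_rfl hCT hQR₂).1 hR₂.1
  exact (Subgroup.card_le_of_le hle₂.le).trans
    (hP.card_le hb ((hn'.pairOf_iff hb).1 ((hn.pairOf_iff hb).2 hP.1)))

end Local

open MonoidAlgebra in
/-- The height plus the exponent of the centre of the defect group is less than the defect plus
`log_p` of the inertial index plus one. -/
theorem pow_height_mul_card_center_le [CharP (Blocks.Res M) p] (hM : IsPModular p M)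
    {B : Set (IrrCharacter G)} (hB : IsPBlock M B) {D : Subgroup G}
    (hBD : IsDefectGroup p M B D) {H : Subgroup G}
    (hH : H = D ⊔ Subgroup.centralizer (D : Set G)) {b : Set (IrrCharacter H)}
    (hind : IsInducedBlock M H b B) {T : Subgroup G}
    (hT : ∀ g : G, g ∈ Subgroup.normalizer (D : Set G) → StabilizesBlock H b g → g ∈ T)
    {χ : IrrCharacter G} (hχ : χ ∈ B) :
    (Nat.card (Subgroup.center D) : ℝ) * (p : ℝ) ^ blockHeight p B (χ : G → ℂ) ≤
      (p : ℝ) ^ blockDefect p B * (H.relIndex T : ℝ) := by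
  classical
  have hb := isBlockIdem_redElem_blockCoeff (M := M) hB
  have hD := (isDefectGroup_iff hM hB).1 hBD
  have hP : IsPGroup p D := hD.2.1
  have hDH : D ≤ H := hH ▸ le_sup_left
  have hCH : Subgroup.centralizer (D : Set G) ≤ H := hH ▸ le_sup_right
  have hHN : H ≤ Subgroup.normalizer (D : Set G) :=
    hH ▸ sup_le Subgroup.le_normalizer (Subgroup.centralizer_le_normalizer _)
  -- the maximal pair
  set ε := subIdem M H b with hε
  have hbH := isBlockIdem_subIdem (M := M) hind.1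
  have hεC : ε ∈ supp (Blocks.Res M) (Subgroup.centralizer (D : Set G)) :=
    supp_mono inf_le_right (mem_supp_cenIn_of_idem hP hDH hHN hbH.mem hbH.mul_self)
  have hεblock : IsBlockIdem (cenIn ⊤ D) ε := by
    rw [cenIn_top]
    have hεc : ε ∈ ctr (Blocks.Res M) (Subgroup.centralizer (D : Set G)) :=
      mem_ctr.2 ⟨hεC, fixedBy_anti hCH (mem_ctr.1 hbH.mem).2⟩
    obtain ⟨g, hg, hne⟩ := exists_isBlockIdem_mul_ne_zero (Subgroup.centralizer (D : Set G))
      hbH.ne_zero
    have hgC : Subgroup.centralizer (D : Set G) ≤ Subgroup.centralizer (D : Set G) := le_rfl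
    have hgpair : IsPair p ⊤ D g := ⟨hP, le_top, by rw [cenIn_top]; exact hg⟩
    have hgH : g ∈ ctr (Blocks.Res M) H := by
      refine mem_ctr.2 ⟨supp_mono hCH (mem_ctr.1 hg.mem).1, ?_⟩
      have hle : H ≤ pairStab ⊤ D g := hH ▸ sup_le (le_pairStab hgpair)
        ((le_inf le_top le_rfl).trans (cenIn_le_pairStab hgpair))
      exact fun x hx => (Subgroup.mem_inf.1 (hle hx)).2
    have h1 : ε * g = g := by
      have hc := (ctr_commute hεc hg.mem).eq
      rw [hc] at hne ⊢
      exact (hg.2.2.2 _ hεc hbH.mul_self).resolve_left hne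
    have h2 : ε * g = ε := (hbH.2.2.2 _ hgH hg.mul_self).resolve_left hne
    rw [← h2, h1]
    exact hg
  have hmax : IsMaxPair p ⊤ (redElem M (blockCoeff B)) D ε := by
    have hof : PairOf p ⊤ (redElem M (blockCoeff B)) D ε := ⟨⟨hP, le_top, hεblock⟩,
      (isInducedBlock_iff hM hP hDH hHN hCH hind.1 hB).1 hind⟩
    obtain ⟨e₀, he₀⟩ := exists_isMaxPair_of_isDefectIn hb hD
    exact PairOf.isMaxPair_of_card hof fun R g hR => he₀.card_le hb hR
  -- the subsections at the centre
  set Zc : Subgroup G := (Subgroup.center D).map D.subtype with hZc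
  have hZmem : ∀ y ∈ Zc, y ∈ D ∧ ∀ u ∈ D, u * y = y * u := by
    rintro _ ⟨z, hz, rfl⟩
    exact ⟨z.2, fun u hu => congrArg Subtype.val (Subgroup.mem_center_iff.1 hz ⟨u, hu⟩)⟩
  have hpel : ∀ y ∈ Zc, ∃ k : ℕ, orderOf y = p ^ k := by
    intro y hy
    obtain ⟨k, hk⟩ := IsPGroup.iff_orderOf.1 hP ⟨y, (hZmem y hy).1⟩
    exact ⟨k, by rwa [Subgroup.orderOf_mk] at hk⟩
  have hsub : ∀ y : G, ∃ by' : Set (IrrCharacter (Subgroup.centralizer ({y} : Set G))),
      y ∈ Zc → IsPBlock M by' ∧
        PairLE p (⊤ : Subgroup G) (Subgroup.zpowers y) (subIdem M _ by') D ε := by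
    intro y
    by_cases hy : y ∈ Zc
    · obtain ⟨φ, hφ, -⟩ := existsUnique_pairLE hmax.1.1 (Subgroup.zpowers_le.2 (hZmem y hy).1)
      have h2 := (hφ.isPair_left hmax.1.1).2.2
      rw [cenIn_top, centralizer_zpowers_eq] at h2
      obtain ⟨f, hf, rfl⟩ := exists_isPBlock_subIdem h2
      exact ⟨f, fun _ => ⟨hf, hφ⟩⟩
    · exact ⟨Set.univ, fun h => absurd h hy⟩
  choose bl hbl using hsub
  have hDC : ∀ y ∈ Zc, D ≤ cenIn ⊤ (Subgroup.zpowers y) := by
    intro y hy
    rw [cenIn_top, centralizer_zpowers_eq]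
    exact fun u hu => Subgroup.mem_centralizer_singleton_iff.2 ((hZmem y hy).2 u hu)
  have hloc : ∀ y ∈ Zc, IsInducedBlock M (Subgroup.centralizer ({y} : Set G)) (bl y) B ∧
      blockDefect p (bl y) = blockDefect p B ∧
      IsMaxPair p (cenIn ⊤ (Subgroup.zpowers y)) (subIdem M _ (bl y)) D ε := by
    intro y hy
    obtain ⟨hblk, hle⟩ := hbl y hy
    set C := Subgroup.centralizer ({y} : Set G) with hC
    have hCz : Subgroup.centralizer (Subgroup.zpowers y : Set G) = C := centralizer_zpowers_eq y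
    have hyC : Subgroup.zpowers y ≤ C :=
      Subgroup.zpowers_le.2 (Subgroup.mem_centralizer_singleton_iff.2 rfl)
    have hindy : IsInducedBlock M C (bl y) B :=
      (isInducedBlock_iff hM (hP.to_le hle.le) hyC
        (hCz ▸ Subgroup.centralizer_le_normalizer _) hCz.le hblk hB).2
        ((hle.pairOf_iff hb).2 hmax.1).2
    have hDn : D ≤ Subgroup.normalizer (Subgroup.zpowers y : Set G) :=
      ((hDC y hy).trans inf_le_right).trans (Subgroup.centralizer_le_normalizer _)
    obtain ⟨g, hn', hge⟩ := hle.normalLE_of_le_normalizer hmax.1.1 hle.le le_rfl hDn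
    obtain rfl : g = ε := (existsUnique_pairLE hmax.1.1 le_rfl).unique hge (PairLE.refl _ _ _ _)
    have hm := isMaxPair_local_of_central hb hmax (hDC y hy) hn'
    refine ⟨hindy, ?_, hm⟩
    have hblock := isBlockIdem_subIdem (M := M) hblk
    rw [cenIn_top, hCz] at hm
    have hDleC : D ≤ C := hm.1.1.2.1
    have hdef : IsDefectGroup p M (bl y) (D.subgroupOf C) := by
      rw [isDefectGroup_sub_iff hM hblk, Subgroup.subgroupOf_map_subtype, inf_eq_left.2 hDleC]
      exact hm.isDefectIn hblock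
    have h1 := Blocks.card_isDefectGroup hM hblk hdef
    rw [Nat.card_congr (Subgroup.subgroupOfEquivOfLe hDleC).toEquiv,
      Blocks.card_isDefectGroup hM hB hBD] at h1
    exact (Nat.pow_right_injective hp.out.two_le h1).symm
  haveI : ∀ y : G, Fintype (Subgroup.centralizer ({y} : Set G)) := fun y => Fintype.ofFinite _
  set Zs : Finset G := univ.filter (· ∈ Zc) with hZs
  have hmZ : ∀ {y}, y ∈ Zs → y ∈ Zc := fun h => (mem_filter.1 h).2
  have hZcard : Zs.card = Nat.card (Subgroup.center D) := by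
    rw [Nat.card_congr (Subgroup.equivMapOfInjective (Subgroup.center D) D.subtype
      D.subtype_injective).toEquiv, ← hZc, Nat.card_eq_fintype_card, Fintype.card_subtype]
  set N : G → ℝ := fun y =>
    subNorm (Subgroup.centralizer ({y} : Set G)) p (cenElem y) (bl y) χ with hN
  -- the Galois average
  have h2 : (Zs.card : ℝ) * (p : ℝ) ^ blockHeight p B (χ : G → ℂ) ≤
      (p : ℝ) ^ blockDefect p B * ∑ y ∈ Zs, N y := by
    refine pow_height_mul_card_le hM χ Zs bl (blockDefect p B) _ (fun y hy => ?_)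
      (fun y hy => ⟨(hbl y (hmZ hy)).1, (hloc y (hmZ hy)).2.1⟩) (fun y hy t ht => ?_)
      (fun y hy => subNorm_ne_zero hM rfl (hpel y (hmZ hy)) rfl (hloc y (hmZ hy)).1
        (hloc y (hmZ hy)).2.1 hχ)
    · obtain ⟨hindy, hdy, -⟩ := hloc y (hmZ hy)
      have hq := BlockSections.isIntegral_secQuot y (bl y) hM (hpel y (hmZ hy)) hindy hdy hχ χ
      have h0 := BlockSections.coe_secQuot_mul (B := B) (p := p) y (bl y) χ χ
      rw [BlockSections.coe_secX, hdy, show contrib y (bl y) p χ χ =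
        subPair (Subgroup.centralizer ({y} : Set G)) p (cenElem y) (bl y) (bl y) χ χ from rfl,
        ← coe_subNorm] at h0
      convert hq using 1
      push_cast
      rw [← h0, mul_div_cancel_left₀ _ (pow_ne_zero _ (Nat.cast_ne_zero.2 hp.out.ne_zero))]
    · obtain ⟨v, hv⟩ := exists_pow_eq_self_of_coprime
        (Nat.Coprime.coprime_dvd_right (orderOf_dvd_natCard y) ht)
      have hz : Subgroup.zpowers (y ^ t) = Subgroup.zpowers y := by
        refine le_antisymm (Subgroup.zpowers_le.2 (Subgroup.npow_mem_zpowers y t))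
          (Subgroup.zpowers_le.2 ?_)
        have h := Subgroup.npow_mem_zpowers (y ^ t) v
        rwa [hv] at h
      have hyt : y ^ t ∈ Zc := pow_mem (hmZ hy) t
      refine ⟨mem_filter.2 ⟨mem_univ _, hyt⟩, ?_⟩
      have h1 := (hbl (y ^ t) hyt).2
      rw [hz] at h1
      exact (existsUnique_pairLE hmax.1.1 (Subgroup.zpowers_le.2 (hZmem y (hmZ hy)).1)).unique h1
        (hbl y (hmZ hy)).2
  -- the classes of subsections
  let R : G → G → Prop := fun y y' => ∃ x : G, x * y * x⁻¹ = y' ∧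
    conjA x (subIdem M _ (bl y)) = subIdem M _ (bl y')
  have hrefl : ∀ y, R y y := fun y => ⟨1, by group, conjA_one _⟩
  have hsymm : ∀ {y y'}, R y y' → R y' y := fun {y y'} ⟨x, h1, h2⟩ =>
    ⟨x⁻¹, by rw [← h1]; group, by rw [← h2, conjA_inv_conjA]⟩
  have htrans : ∀ {y y' y''}, R y y' → R y' y'' → R y y'' :=
    fun {y y' y''} ⟨x, h1, h2⟩ ⟨x', h3, h4⟩ =>
      ⟨x' * x, by rw [← h3, ← h1]; group, by rw [conjA_mul, h2, h4]⟩
  set O : G → Finset G := fun y => Zs.filter (R y) with hO
  set r : Finset G → G := fun s => if h : s.Nonempty then h.choose else 1 with hr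
  have hrO : ∀ y ∈ Zs, r (O y) ∈ O y := fun y hy => by
    have h : (O y).Nonempty := ⟨y, mem_filter.2 ⟨hy, hrefl y⟩⟩
    simp only [r, dif_pos h]
    exact h.choose_spec
  set S := Zs.image fun y => r (O y) with hS
  have hSZ : ∀ s ∈ S, s ∈ Zs := fun s hs => by
    obtain ⟨y, hy, rfl⟩ := mem_image.1 hs
    exact (mem_filter.1 (hrO y hy)).1
  have h1 : ∑ y ∈ S, N y ≤ 1 := by
    refine sum_subNorm_le_one hM χ S (fun y hy => hpel y (hmZ (hSZ y hy))) bl
      (fun y hy => (hbl y (hmZ (hSZ y hy))).1) fun y hy y' hy' x hx hxb => ?_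
    obtain ⟨a, ha, rfl⟩ := mem_image.1 hy
    obtain ⟨a', ha', rfl⟩ := mem_image.1 hy'
    have hR : R a a' := htrans (htrans (mem_filter.1 (hrO a ha)).2 ⟨x, hx, hxb⟩)
      (hsymm (mem_filter.1 (hrO a' ha')).2)
    congr 1
    ext z
    simp only [O, mem_filter, and_congr_right_iff]
    exact fun _ => ⟨fun h => htrans (hsymm hR) h, fun h => htrans hR h⟩
  have hinv : ∀ y ∈ Zs, N y = N (r (O y)) := by
    intro y hy
    obtain ⟨hrZ, x, hx, hxb⟩ := mem_filter.1 (hrO y hy)
    have hC : Subgroup.centralizer ({r (O y)} : Set G) =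
        cj x (Subgroup.centralizer ({y} : Set G)) := by
      ext a
      rw [mem_cj, Subgroup.mem_centralizer_singleton_iff, Subgroup.mem_centralizer_singleton_iff,
        ← hx]
      constructor
      · intro h
        calc x⁻¹ * a * x * y = x⁻¹ * (a * (x * y * x⁻¹)) * x := by group
          _ = y * (x⁻¹ * a * x) := by rw [h]; group
      · intro h
        calc a * (x * y * x⁻¹) = x * (x⁻¹ * a * x * y) * x⁻¹ := by group
          _ = x * y * x⁻¹ * a := by rw [h]; group
    simp only [hN]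
    rw [← subNorm_image hC (y := cenElem y) (y' := cenElem (r (O y))) hx.symm (bl y) χ]
    exact subNorm_congr (M := M) rfl rfl
      (isPBlock_image_compIrr _ (hbl y (hmZ hy)).1) (hbl _ (hmZ hrZ)).1
      (by rw [subIdem_image]; exact hxb) χ
  have hfib : ∀ s ∈ S, (Zs.filter fun y => r (O y) = s).card ≤ H.relIndex T := by
    intro s hs
    have hsZ := hmZ (hSZ s hs)
    haveI := Fintype.ofFinite (↥T ⧸ H.subgroupOf T)
    rw [Subgroup.relIndex, Subgroup.index_eq_card, Nat.card_eq_fintype_card, ← Finset.card_univ]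
    refine le_trans (card_le_card fun y hy => ?_)
      (card_image_le (f := fun q : ↥T ⧸ H.subgroupOf T => (q.out : G) * s * (q.out : G)⁻¹))
    obtain ⟨hyZ, hys⟩ := mem_filter.1 hy
    obtain ⟨x, hx, hxb⟩ := hsymm (hys ▸ (mem_filter.1 (hrO y hyZ)).2 : R y s)
    -- both maximal pairs lie in the centraliser of `y`
    obtain ⟨-, -, hmy⟩ := hloc y (hmZ hyZ)
    obtain ⟨-, -, hms⟩ := hloc s hsZ
    set K := cenIn ⊤ (Subgroup.zpowers y) with hK
    have hKs : cj x (cenIn ⊤ (Subgroup.zpowers s)) = K := by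
      rw [hK, cj_cenIn (Subgroup.mem_top x), ← hx]
      congr 1
      rw [cj, MonoidHom.map_zpowers]
      rfl
    have hblock : IsBlockIdem K (subIdem M _ (bl y)) :=
      isBlockIdem_congr (by rw [hK, cenIn_top, centralizer_zpowers_eq])
        (isBlockIdem_subIdem (hbl y (hmZ hyZ)).1)
    have hp2 : PairOf p K (subIdem M _ (bl y)) (cj x D) (conjA x ε) := by
      obtain ⟨⟨hq, hle, hbi⟩, hbr⟩ := hms.1
      refine ⟨⟨hq.map _, hKs ▸ cj_le_cj hle, ?_⟩, ?_⟩
      · have h := hbi.conj_cj x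
        rwa [cenIn, cj_inf, hKs, ← cj_centralizer] at h
      · rw [← hxb, brau_cj, ← map_mul, hbr]
    have hmax2 : IsMaxPair p K (subIdem M _ (bl y)) (cj x D) (conjA x ε) :=
      PairOf.isMaxPair_of_card hp2 fun R g hR => (hmy.card_le hblock hR).trans
        (Subgroup.card_map_of_injective (MulAut.conj x).injective).ge
    obtain ⟨c, hcK, hcD, hcε⟩ := hmy.exists_conj hblock hmax2
    rw [hK, cenIn_top, centralizer_zpowers_eq] at hcK
    have hn1 : cj (c⁻¹ * x) D = D := by rw [cj_mul, hcD, ← cj_mul, inv_mul_cancel, cj_one]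
    have hn2 : conjA (c⁻¹ * x) ε = ε := by rw [conjA_mul, hcε, conjA_inv_conjA]
    have hnN : c⁻¹ * x ∈ Subgroup.normalizer (D : Set G) := by
      apply Subgroup.mem_normalizer_fintype
      intro u hu
      exact hn1.le ⟨u, hu, rfl⟩
    have hnH : c⁻¹ * x ∈ Subgroup.normalizer (H : Set G) := by
      rw [Subgroup.mem_normalizer_iff_map_conj_eq]
      show cj (c⁻¹ * x) H = H
      rw [hH, cj, Subgroup.map_sup]
      exact congrArg₂ _ hn1 (by rw [← cj, ← cj_centralizer, hn1])
    have hnT : c⁻¹ * x ∈ T :=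
      hT _ hnN ((stabilizesBlock_iff hind.1).2 ⟨hnH, hn2⟩)
    refine mem_image.2 ⟨QuotientGroup.mk ⟨_, hnT⟩, mem_univ _, ?_⟩
    obtain ⟨h, hh⟩ := QuotientGroup.mk_out_eq_mul (H.subgroupOf T) (⟨_, hnT⟩ : T)
    rw [hh]
    have hhH : ((h : T) : G) ∈ H := Subgroup.mem_subgroupOf.1 h.2
    have hfix : ((h : T) : G) * s * ((h : T) : G)⁻¹ = s := by
      have hle : H ≤ Subgroup.centralizer ({s} : Set G) := by
        rw [hH, sup_le_iff]
        refine ⟨fun u hu => Subgroup.mem_centralizer_singleton_iff.2 ((hZmem s hsZ).2 u hu),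
          fun u hu => Subgroup.mem_centralizer_singleton_iff.2 ?_⟩
        exact (Subgroup.mem_centralizer_iff.1 hu s (hZmem s hsZ).1).symm
      rw [Subgroup.mem_centralizer_singleton_iff.1 (hle hhH), mul_inv_cancel_right]
    calc ((⟨_, hnT⟩ : T) * (h : T) : T).1 * s * (((⟨_, hnT⟩ : T) * (h : T) : T).1)⁻¹
        = c⁻¹ * x * (((h : T) : G) * s * ((h : T) : G)⁻¹) * (c⁻¹ * x)⁻¹ := by
          rw [Subgroup.coe_mul]; group
      _ = c⁻¹ * (x * s * x⁻¹) * c := by rw [hfix]; group
      _ = c⁻¹ * (y * c) := by rw [hx, mul_assoc]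
      _ = y := by rw [← Subgroup.mem_centralizer_singleton_iff.1 hcK, inv_mul_cancel_left]
  have h3 : ∑ y ∈ Zs, N y ≤ (H.relIndex T : ℝ) := by
    rw [sum_congr rfl hinv, ← sum_fiberwise_of_maps_to (g := fun y => r (O y)) (t := S)
      (fun y hy => mem_image.2 ⟨y, hy, rfl⟩)]
    calc ∑ s ∈ S, ∑ y ∈ Zs.filter (fun y => r (O y) = s), N (r (O y))
        ≤ ∑ s ∈ S, (H.relIndex T : ℝ) * N s := by
          refine sum_le_sum fun s hs => ?_
          rw [sum_congr rfl (fun y hy => congrArg N (mem_filter.1 hy).2), sum_const, nsmul_eq_mul]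
          exact mul_le_mul_of_nonneg_right (Nat.cast_le.2 (hfib s hs)) (subNorm_nonneg _ _ _ _)
      _ ≤ _ := by rw [← mul_sum]; exact mul_le_of_le_one_right (Nat.cast_nonneg _) h1
  rw [← hZcard]
  exact h2.trans (mul_le_mul_of_nonneg_left h3 (pow_nonneg (Nat.cast_nonneg p) _))

end CfsgLib.BrauerCharacters
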