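import Cfsg.Agent.Lib.BrauerCharacters.BlockEntries
import Cfsg.Agent.Lib.Blocks.Idempotent
import Cfsg.Agent.Lib.CharTheory.Inflation

/-!
# Blocks of the quotient by a central involution

In characteristic two, a central idempotent of the group algebra of `G / ⟨z⟩`, for a central
involution `z`, lifts to a central idempotent of the group algebra of `G`. So a character of the
quotient whose inflation lies in the principal block lies in the principal block of the quotient.
-/

set_option autoImplicit false

namespace CfsgLib.BrauerCharacters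

open Cfsg CfsgLib.Blocks MonoidAlgebra Finset

variable {G H : Type*} [Group G] [Group H]

theorem isClassElem_mapDomain [Finite G] {R : Type*} [CommRing R] (f : G →* H)
    (hf : Function.Surjective f) {z : MonoidAlgebra R G} (hz : IsClassElem z) :
    IsClassElem (mapDomainRingHom R f z) := by
  classical
  haveI := Fintype.ofFinite G
  intro c x
  obtain ⟨c0, rfl⟩ := hf c
  rw [coeff_mapDomainRingHom, coeff_mapDomainRingHom]
  refine (Fintype.sum_equiv (MulAut.conj c0).toEquiv _ _ fun g => ?_).symm
  show (if f g = x then z.coeff g else 0) =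
    if f (c0 * g * c0⁻¹) = f c0 * x * (f c0)⁻¹ then z.coeff (c0 * g * c0⁻¹) else 0
  rw [hz c0 g]
  refine if_congr ?_ rfl rfl
  rw [map_mul, map_mul, map_inv, mul_left_inj, mul_right_inj]

/-- The map on class algebras induced by a surjection. -/
noncomputable def quotMap (R : Type*) [CommRing R] [Finite G] (f : G →* H)
    (hf : Function.Surjective f) : classAlg R G →+* classAlg R H :=
  ((mapDomainRingHom R f).comp (classAlg R G).val.toRingHom).codRestrict (classAlg R H)
    fun z => isClassElem_mapDomain f hf z.2

theorem coe_quotMap {R : Type*} [CommRing R] [Finite G] (f : G →* H) (hf : Function.Surjective f)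
    (z : classAlg R G) :
    (quotMap R f hf z : MonoidAlgebra R H) = mapDomainRingHom R f z := rfl

variable [Finite G] [Finite H] {M : Ideal AlgInt} [M.IsPrime]

theorem omegaRes_quotMap (f : G →* H) (hf : Function.Surjective f) (ξ : IrrCharacter H)
    (η : IrrCharacter G) (hη : ∀ g, (η : G → ℂ) g = (ξ : H → ℂ) (f g))
    (z : classAlg (Res M) G) :
    omegaRes M ξ (quotMap (Res M) f hf z) = omegaRes M η z := by
  classical
  haveI := Fintype.ofFinite G
  haveI := Fintype.ofFinite H
  obtain ⟨w, rfl⟩ := classMap_surjective IsLocalRing.residue_surjective z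
  have h1 : quotMap (Res M) f hf (classMap (red M) w) =
      classMap (red M) (quotMap (locRing M) f hf w) := by
    apply Subtype.ext
    refine MonoidAlgebra.ext (Finsupp.ext fun x => ?_)
    simp only [coe_quotMap, coe_classMap, coeff_mapRingHom, coeff_mapDomainRingHom, map_sum]
    exact sum_congr rfl fun g _ => by rw [apply_ite (red M), map_zero]
  show omegaRes M ξ (quotMap (Res M) f hf (classMap (red M) w)) =
    omegaRes M η (classMap (red M) w)
  rw [h1, omegaRes_classMap, omegaRes_classMap]
  refine congrArg (red M) (Subtype.ext ?_)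
  rw [coe_omegaLoc, coe_omegaLoc, omega_eq_sum, omega_eq_sum, hη, map_one]
  congr 1
  simp only [coeff_mapRingHom, coe_quotMap, coeff_mapDomainRingHom, map_sum, sum_mul]
  rw [sum_comm]
  refine sum_congr rfl fun g _ => ?_
  rw [sum_eq_single (f g)]
  · rw [if_pos rfl, hη]
  · intro x _ hx; rw [if_neg (Ne.symm hx), map_zero, zero_mul]
  · simp

/-- Central idempotents lift along the quotient by a central involution in characteristic two. -/
theorem exists_lift_idem {k : Type*} [Field k] [CharP k 2] (f : G →* H)
    (hf : Function.Surjective f) {z : G} (hz2 : z * z = 1) (hz1 : z ≠ 1)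
    (hzc : ∀ g, z * g = g * z) (hker : ∀ g, f g = 1 ↔ g = 1 ∨ g = z)
    (e : classAlg k H) (he : e * e = e) :
    ∃ e' : classAlg k G, quotMap k f hf e' = e := by
  classical
  haveI := Fintype.ofFinite G
  set Z : MonoidAlgebra k G := 1 + single z 1
  have h2 : ∀ a : MonoidAlgebra k G, a + a = 0 := fun a => by
    refine MonoidAlgebra.ext (Finsupp.ext fun x => ?_)
    rw [coeff_add, Finsupp.add_apply, CharTwo.add_self_eq_zero]
    simp
  have hZZ : Z * Z = 0 := by
    simp only [Z, add_mul, one_mul, mul_add, mul_one, single_mul_single, hz2, ← one_def]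
    rw [add_comm (single z (1 : k)) 1]
    exact h2 _
  have hZc : ∀ a : MonoidAlgebra k G, Z * a = a * Z := fun a => by
    simp only [Z, add_mul, one_mul, mul_add, mul_one]
    congr 1
    refine MonoidAlgebra.ext (Finsupp.ext fun x => ?_)
    rw [coeff_single_mul_apply, coeff_mul_single_apply, one_mul, mul_one, inv_eq_of_mul_eq_one_right hz2,
      hzc x]
  set π := mapDomainRingHom k f
  -- the kernel is the multiples of `Z`
  have hπ : ∀ w : MonoidAlgebra k G, π w = 0 → ∃ b, w = Z * b := by
    intro w hw
    have hco : ∀ g, w.coeff g + w.coeff (z * g) = 0 := fun g => by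
      have h1 := congrArg (fun a : MonoidAlgebra k H => a.coeff (f g)) hw
      simp only [π, coeff_mapDomainRingHom, coeff_zero, Finsupp.coe_zero, Pi.zero_apply] at h1
      rw [← sum_filter] at h1
      rwa [show univ.filter (fun x => f x = f g) = {g, z * g} by
        ext x
        simp only [mem_filter, mem_univ, true_and, mem_insert, mem_singleton]
        rw [← mul_inv_eq_one, ← map_inv, ← map_mul, hker, mul_inv_eq_one, mul_inv_eq_iff_eq_mul],
        sum_pair (fun h => hz1 (mul_eq_right.1 h.symm))] at h1
    let r := Fintype.equivFin G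
    refine ⟨∑ g ∈ univ.filter (fun g => r g < r (z * g)), single g (w.coeff g), ?_⟩
    refine MonoidAlgebra.ext (Finsupp.ext fun x => ?_)
    rw [add_mul, one_mul, coeff_add, Finsupp.add_apply, coeff_single_mul_apply, one_mul]
    simp only [coeff_finsetSum_apply, coeff_single, Finsupp.single_apply, sum_ite_eq',
      mem_filter, mem_univ, true_and]
    rw [inv_eq_of_mul_eq_one_right hz2, ← mul_assoc z z x, hz2, one_mul]
    have hne : r x ≠ r (z * x) := fun h => hz1 (mul_eq_right.1 (r.injective h).symm)
    rcases lt_or_gt_of_ne hne with h | h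
    · simp [h, h.not_gt]
    · rw [if_neg h.not_gt, if_pos h, zero_add]
      exact (CharTwo.add_eq_zero.1 (hco x))
  obtain ⟨x, hx⟩ : ∃ x, π x = (e : MonoidAlgebra k H) := by
    choose s hs using hf
    haveI := Fintype.ofFinite H
    refine ⟨∑ h : H, single (s h) ((e : MonoidAlgebra k H).coeff h), ?_⟩
    rw [map_sum]
    refine MonoidAlgebra.ext (Finsupp.ext fun h => ?_)
    rw [coeff_finsetSum_apply, sum_eq_single h]
    · show (mapDomain f (single (s h) _)).coeff h = _
      rw [mapDomain_single, coeff_single, hs, Finsupp.single_eq_same]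
    · intro h' _ hne
      show (mapDomain f (single (s h') _)).coeff h = _
      rw [mapDomain_single, coeff_single, hs, Finsupp.single_eq_of_ne (Ne.symm hne)]
    · simp
  set e0 := x * x
  have he2 : (e : MonoidAlgebra k H) * e = e := congrArg Subtype.val he
  have hidem : e0 * e0 = e0 := by
    obtain ⟨b, hb⟩ := hπ (x * x - x) (by rw [map_sub, map_mul, hx, he2, sub_self])
    have h3 : (x * x - x) * (x * x - x) = 0 := by
      rw [hb, mul_assoc, ← mul_assoc b, ← hZc b, mul_assoc Z b b, ← mul_assoc, hZZ, zero_mul]
    have h4 : x * x * (x * x) - x * x = (x * x - x) * (x * x - x) + (x * (x * x - x) + x * (x * x - x)) := by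
      noncomm_ring
    rw [h3, h2, add_zero] at h4
    exact sub_eq_zero.1 h4
  have hπe : π e0 = (e : MonoidAlgebra k H) := by rw [map_mul, hx, he2]
  -- idempotent lifts of central idempotents are central
  have hcent : ∀ a : MonoidAlgebra k G, e0 * a = a * e0 := by
    intro a
    haveI := Fintype.ofFinite H
    have hcomm : ∀ c : MonoidAlgebra k H, (e : MonoidAlgebra k H) * c = c * e :=
      fun c => (IsClassElem.commute e.2 c).eq.symm
    have key : ∀ u v : MonoidAlgebra k G, u * u = u → v * v = v →
        π u * π v = 0 → (∀ c, π u * c = c * π u) → u * a * v = 0 := by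
      intro u v hu hv huv hc
      have hker : ∀ b, π (u * b * v) = 0 := fun b => by
        rw [map_mul, map_mul, hc, mul_assoc, huv, mul_zero]
      obtain ⟨b, hb⟩ := hπ _ (hker a)
      obtain ⟨c, hc'⟩ := hπ _ (hker b)
      have h5 : u * (u * a * v) * v = u * a * v := by
        rw [show u * (u * a * v) * v = (u * u) * a * (v * v) by simp only [mul_assoc], hu, hv]
      rw [← h5, hb, ← mul_assoc u Z b, ← hZc u, mul_assoc Z u b, mul_assoc Z (u * b) v, hc',
        ← mul_assoc, hZZ, zero_mul]
    have hs : (1 - e0) * (1 - e0) = 1 - e0 := by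
      rw [sub_mul, one_mul, mul_sub, mul_one, hidem, sub_self, sub_zero]
    have k1 := key e0 (1 - e0) hidem hs (by rw [map_sub, map_one, hπe, mul_sub, mul_one, he2, sub_self])
      (fun c => by rw [hπe]; exact hcomm c)
    have k2 := key (1 - e0) e0 hs hidem (by rw [map_sub, map_one, hπe, sub_mul, one_mul, he2, sub_self])
      (fun c => by rw [map_sub, map_one, hπe, sub_mul, mul_sub, one_mul, mul_one, hcomm c])
    rw [mul_sub, mul_one, sub_eq_zero] at k1
    rw [sub_mul, one_mul, sub_mul, sub_eq_zero] at k2
    rw [k1, k2]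
  refine ⟨⟨e0, isClassElem_iff_commute.2 fun g => ?_⟩, Subtype.ext hπe⟩
  exact (hcent (single g 1)).symm

/-- A character of the quotient by a central involution whose inflation is in the principal block
lies in the principal block. -/
theorem mem_principalBlock_of_inflate (hM : IsPModular 2 M) (f : G →* H)
    (hf : Function.Surjective f) {z : G} (hz2 : z * z = 1) (hz1 : z ≠ 1)
    (hzc : ∀ g, z * g = g * z) (hker : ∀ g, f g = 1 ↔ g = 1 ∨ g = z)
    (ξ : IrrCharacter H) (η : IrrCharacter G) (hη : ∀ g, (η : G → ℂ) g = (ξ : H → ℂ) (f g))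
    (hmem : η ∈ principalBlock M G) : ξ ∈ principalBlock M H := by
  haveI := charP_res hM
  have hB : IsPBlock M (principalBlock M H) := ⟨CfsgLib.CharTheory.trivIrr H, rfl⟩
  obtain ⟨e', he'⟩ := exists_lift_idem f hf hz2 hz1 hzc hker
    (idemRes M _ (memLocalRing_blockCoeff hB)) (idemRes_mul_self _)
  by_contra hξ
  have h0 := omegaRes_idemRes_of_notMem (memLocalRing_blockCoeff hB) hξ
  have h1 := omegaRes_idemRes_of_mem (memLocalRing_blockCoeff hB)
    (mem_blockOf_self (M := M) (CfsgLib.CharTheory.trivIrr H))
  rw [← he', omegaRes_quotMap f hf ξ η hη] at h0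
  rw [← he', omegaRes_quotMap f hf _ (CfsgLib.CharTheory.trivIrr G) (fun _ => rfl)] at h1
  rw [(omegaRes_eq_iff M η (CfsgLib.CharTheory.trivIrr G)).mpr (sameBlock_symm hmem), h1] at h0
  exact one_ne_zero h0

end CfsgLib.BrauerCharacters
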