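import Cfsg.Agent.Lib.InvChar.FourGroup
import Cfsg.Agent.Lib.Involutions.Counting

/-!
# Groups with a four group whose involutions have bounded centralizers

The order of a finite group with two commuting involutions `t`, `s` such that the centralizers of
`t`, `s` and `t * s` have order at most `N` is bounded in terms of `N` and the `2`-part of its
order.
-/

set_option autoImplicit false

namespace CfsgLib.BrauerCharacters

open Finset

universe u

section Odd

variable {G : Type*} [Group G] {W : Subgroup G}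

theorem exists_fixed_decomp (hW : Odd (Nat.card W)) {a b : G} (ha : a * a = 1) (hb : b * b = 1)
    (hab : a * b = b * a) (hna : ∀ w ∈ W, a * w * a⁻¹ ∈ W) (hnb : ∀ w ∈ W, b * w * b⁻¹ ∈ W)
    {w : G} (hw : w ∈ W) :
    ∃ u ∈ Subgroup.centralizer ({a} : Set G), ∃ d ∈ Subgroup.centralizer ({b} : Set G),
      ∃ m ∈ Subgroup.centralizer ({a * b} : Set G), w = u * (d * m * d) := by
  set A : G →* G := (MulAut.conj a).toMonoidHom with hA
  set B : G →* G := (MulAut.conj b).toMonoidHom with hB
  have hAW : ∀ w ∈ W, A w ∈ W := hna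
  have hBW : ∀ w ∈ W, B w ∈ W := hnb
  have hai : a⁻¹ = a := inv_eq_of_mul_eq_one_right ha
  have hbi : b⁻¹ = b := inv_eq_of_mul_eq_one_right hb
  have hAA : ∀ w, A (A w) = w := fun w => by
    show a * (a * w * a⁻¹) * a⁻¹ = w
    simp only [hai, ← mul_assoc, ha, one_mul]; simp only [mul_assoc, ha, mul_one]
  have hBB : ∀ w, B (B w) = w := fun w => by
    show b * (b * w * b⁻¹) * b⁻¹ = w
    simp only [hbi, ← mul_assoc, hb, one_mul]; simp only [mul_assoc, hb, mul_one]
  have hABc : ∀ w, A (B w) = B (A w) := fun w => by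
    show a * (b * w * b⁻¹) * a⁻¹ = b * (a * w * a⁻¹) * b⁻¹
    simp only [hai, hbi, ← mul_assoc, hab]; simp only [mul_assoc, hab]
  have fixA : ∀ w, A w = w → w ∈ Subgroup.centralizer ({a} : Set G) := fun w h =>
    Subgroup.mem_centralizer_singleton_iff.2 (mul_inv_eq_iff_eq_mul.1 h).symm
  have fixB : ∀ w, B w = w → w ∈ Subgroup.centralizer ({b} : Set G) := fun w h =>
    Subgroup.mem_centralizer_singleton_iff.2 (mul_inv_eq_iff_eq_mul.1 h).symm
  have fixAB : ∀ w, A (B w) = w → w ∈ Subgroup.centralizer ({a * b} : Set G) := fun w h =>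
    Subgroup.mem_centralizer_singleton_iff.2 (by
      have h' : a * b * w * (a * b)⁻¹ = w := by
        conv_rhs => rw [← h]
        show _ = a * (b * w * b⁻¹) * a⁻¹
        simp [mul_assoc]
      exact (mul_inv_eq_iff_eq_mul.1 h').symm)
  have inv : ∀ i ∈ W, A i = i⁻¹ → ∃ d ∈ Subgroup.centralizer ({b} : Set G),
      ∃ m ∈ Subgroup.centralizer ({a * b} : Set G), i = d * m * d := by
    intro i hi hAi
    obtain ⟨s, hs, hss⟩ := InvChar.exists_sqrt hW (B i * i⁻¹) (W.mul_mem (hBW i hi) (W.inv_mem hi))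
    set c := s * i with hc
    have hcW : c ∈ W := W.mul_mem hs hi
    have hBs : B s = s⁻¹ := by
      apply InvChar.sqrt_inj hW (hBW s hs) (W.inv_mem hs)
      rw [← map_mul, hss, map_mul, map_inv, hBB, ← mul_inv_rev, hss, mul_inv_rev, inv_inv]
    have hBc : B c = c := by
      rw [hc, map_mul, hBs, inv_mul_eq_iff_eq_mul, ← mul_assoc, hss, inv_mul_cancel_right]
    have hAs : A s = i⁻¹ * s⁻¹ * i := by
      apply InvChar.sqrt_inj hW (hAW s hs) (W.mul_mem (W.mul_mem (W.inv_mem hi) (W.inv_mem hs)) hi)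
      rw [← map_mul, hss, map_mul, map_inv, hABc, hAi, inv_inv, map_inv]
      calc (B i)⁻¹ * i = i⁻¹ * (B i * i⁻¹)⁻¹ * i := by simp [mul_assoc]
        _ = i⁻¹ * (s * s)⁻¹ * i := by rw [hss]
        _ = _ := by simp [mul_assoc]
    have hAc : A c = c⁻¹ := by rw [hc, map_mul, hAs, hAi, mul_inv_rev]; simp [mul_assoc]
    obtain ⟨d, hd, hdd⟩ := InvChar.exists_sqrt hW c hcW
    have hBd : B d = d := InvChar.sqrt_inj hW (hBW d hd) hd (by rw [← map_mul, hdd, hBc])
    have hAd : A d = d⁻¹ :=
      InvChar.sqrt_inj hW (hAW d hd) (W.inv_mem hd)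
        (by rw [← map_mul, hdd, hAc, ← mul_inv_rev, hdd])
    refine ⟨d, fixB d hBd, d⁻¹ * i * d⁻¹, fixAB _ ?_, by simp [mul_assoc]⟩
    simp only [map_mul, map_inv, hBd, hAd, inv_inv]
    have hBi : B i = c * i⁻¹ * c := by
      rw [hc]; simp only [mul_assoc, mul_inv_cancel_left]
      rw [← mul_assoc, hss, inv_mul_cancel_right]
    simp only [hBi, map_mul, map_inv, hAi, inv_inv, ← hdd, hAd]
    simp [mul_assoc]
  obtain ⟨z, hz, hzz⟩ :=
    InvChar.exists_sqrt hW (w⁻¹ * A w) (W.mul_mem (W.inv_mem hw) (hAW w hw))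
  have hAz : A z = z⁻¹ := by
    apply InvChar.sqrt_inj hW (hAW z hz) (W.inv_mem hz)
    rw [← map_mul, hzz, map_mul, map_inv, hAA, ← mul_inv_rev, hzz, mul_inv_rev, inv_inv]
  have h1 : A (w * z) = w * z := by
    rw [map_mul, hAz, mul_inv_eq_iff_eq_mul, mul_assoc, hzz, mul_inv_cancel_left]
  obtain ⟨d, hd, m, hm, h2⟩ := inv z⁻¹ (W.inv_mem hz) (by rw [map_inv, hAz])
  exact ⟨w * z, fixA _ h1, d, hd, m, hm, by rw [← h2, mul_inv_cancel_right]⟩

theorem card_odd_le [Finite G] (hW : Odd (Nat.card W)) {a b : G} (ha : a * a = 1) (hb : b * b = 1)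
    (hab : a * b = b * a) (hna : ∀ w ∈ W, a * w * a⁻¹ ∈ W) (hnb : ∀ w ∈ W, b * w * b⁻¹ ∈ W) :
    Nat.card W ≤ Nat.card (Subgroup.centralizer ({a} : Set G)) *
      (Nat.card (Subgroup.centralizer ({b} : Set G)) *
        Nat.card (Subgroup.centralizer ({a * b} : Set G))) := by
  rw [← Nat.card_prod, ← Nat.card_prod]
  choose u hu d hd m hm h using fun w : W => exists_fixed_decomp hW ha hb hab hna hnb w.2
  refine Nat.card_le_card_of_injective (fun w => (⟨u w, hu w⟩, ⟨d w, hd w⟩, ⟨m w, hm w⟩))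
    fun w w' e => Subtype.ext ?_
  simp only [Prod.mk.injEq, Subtype.mk.injEq] at e
  rw [h w, h w', e.1, e.2.1, e.2.2]

end Odd

section Quotient

variable {G : Type*} [Group G] [Finite G]

theorem card_centralizer_quotient_le (Y : Subgroup G) [Y.Normal] (v : G) :
    Nat.card (Subgroup.centralizer ({(v : G ⧸ Y)} : Set (G ⧸ Y))) ≤
      Nat.card Y * Nat.card (Subgroup.centralizer ({v} : Set G)) := by
  classical
  haveI := Fintype.ofFinite G
  set C := Subgroup.centralizer ({(v : G ⧸ Y)} : Set (G ⧸ Y))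
  set H := C.comap (QuotientGroup.mk' Y)
  have h1 : Nat.card C ≤ Nat.card H := by
    refine Nat.card_le_card_of_surjective (fun h : H => ⟨QuotientGroup.mk' Y h, h.2⟩) ?_
    rintro ⟨x, hx⟩
    obtain ⟨g, rfl⟩ := QuotientGroup.mk'_surjective Y x
    exact ⟨⟨g, hx⟩, rfl⟩
  refine h1.trans ?_
  have hmem : ∀ g : H, (g : G) * v * (g : G)⁻¹ * v⁻¹ ∈ Y := fun g => by
    have h := Subgroup.mem_centralizer_singleton_iff.1 (show QuotientGroup.mk' Y (g : G) ∈ C from g.2)
    rw [← QuotientGroup.eq_one_iff]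
    show QuotientGroup.mk' Y ((g : G) * v * (g : G)⁻¹ * v⁻¹) = 1
    simp only [map_mul, map_inv]
    rw [show QuotientGroup.mk' Y v = (v : G ⧸ Y) from rfl, h]
    group
  let f : H → Y := fun g => ⟨(g : G) * v * (g : G)⁻¹ * v⁻¹, hmem g⟩
  haveI := Fintype.ofFinite H
  haveI := Fintype.ofFinite Y
  rw [Nat.card_eq_fintype_card, Nat.card_eq_fintype_card, ← card_univ, ← card_univ (α := Y)]
  refine card_le_mul_card_image_of_maps_to (f := f) (fun a _ => mem_univ _) _ (fun y _ => ?_)
    |>.trans_eq (mul_comm _ _)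
  rcases (univ.filter fun g : H => f g = y).eq_empty_or_nonempty with h | ⟨g0, hg0⟩
  · rw [h, card_empty]; exact Nat.zero_le _
  · rw [Nat.card_eq_fintype_card, ← card_univ (α := Subgroup.centralizer ({v} : Set G))]
    refine card_le_card_of_injOn (fun g : H => if hg : f g = f g0 then
        (⟨(g0 : G)⁻¹ * (g : G), Subgroup.mem_centralizer_singleton_iff.2 ?_⟩ :
          Subgroup.centralizer ({v} : Set G)) else 1) (fun _ _ => mem_univ _) ?_
    · have h1 : (g : G) * v * (g : G)⁻¹ = (g0 : G) * v * (g0 : G)⁻¹ :=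
        mul_right_cancel (congrArg Subtype.val hg)
      calc (g0 : G)⁻¹ * (g : G) * v = (g0 : G)⁻¹ * ((g : G) * v * (g : G)⁻¹) * g := by group
        _ = v * ((g0 : G)⁻¹ * g) := by rw [h1]; group
    · intro g hg g' hg' he
      rw [Finset.mem_coe] at hg hg'
      have e1 : f g = f g0 := by rw [(mem_filter.1 hg).2, (mem_filter.1 hg0).2]
      have e2 : f g' = f g0 := by rw [(mem_filter.1 hg').2, (mem_filter.1 hg0).2]
      simp only [dif_pos e1, dif_pos e2, Subtype.mk.injEq] at he
      exact Subtype.ext (mul_left_cancel he)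

/-- An involution with small centralizer forces a small noncentral class. -/
theorem exists_small_noncentral_class {t : G} (ht : orderOf t = 2) {N : ℕ}
    (hN : Nat.card (Subgroup.centralizer ({t} : Set G)) ≤ N) (hbig : 4 * N ^ 3 < Nat.card G) :
    ∃ x : G, x ∉ Subgroup.center G ∧
      Nat.card G ≤ 4 * N ^ 2 * Nat.card (Subgroup.centralizer ({x} : Set G)) := by
  classical
  haveI := Fintype.ofFinite G
  by_contra hcon
  push Not at hcon
  set S := univ.filter (IsConj t)
  set n := Nat.card G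
  have hS : S.card * Nat.card (Subgroup.centralizer ({t} : Set G)) = n := by
    show S.card * _ = Nat.card G
    rw [← Involutions.card_isConj_mul_card_centralizer t]
    simp [S, Nat.card_eq_fintype_card, Fintype.card_subtype]
  have hord : ∀ u ∈ S, orderOf u = 2 := fun u hu => by
    obtain ⟨c, rfl⟩ := isConj_iff.1 (mem_filter.1 hu).2
    rw [show orderOf (c * t * c⁻¹) = orderOf t from (MulAut.conj c).orderOf_eq t, ht]
  have hfib : ∀ x : G, ((S ×ˢ S).filter fun q => q.1 * q.2 = x).card ≤
      if x = 1 then S.card else Nat.card (Subgroup.centralizer ({x} : Set G)) := by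
    intro x
    split_ifs with hx
    · subst hx
      refine card_le_card_of_injOn Prod.fst (fun q hq => ?_) ?_
      · exact (mem_product.1 (mem_filter.1 hq).1).1
      · intro q hq q' hq' h
        rw [Finset.mem_coe, mem_filter] at hq hq'
        exact Prod.ext h (mul_left_cancel (a := q.1) (by rw [hq.2]; exact h ▸ hq'.2.symm))
    · refine le_trans ?_ (Involutions.card_pairs_le x)
      rw [Nat.card_eq_fintype_card, Fintype.card_subtype]
      exact card_le_card fun q hq => by
        obtain ⟨hq1, hq2⟩ := mem_filter.1 hq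
        exact mem_filter.2 ⟨mem_univ _, hord _ (mem_product.1 hq1).1,
          hord _ (mem_product.1 hq1).2, hq2⟩
  set F : G → ℕ := fun x => if x = 1 then S.card else Nat.card (Subgroup.centralizer ({x} : Set G))
  have hsum : S.card * S.card ≤ ∑ x : G, F x := by
    rw [← card_product, card_eq_sum_card_fiberwise (f := fun q : G × G => q.1 * q.2)
      (t := univ) (fun _ _ => mem_univ _)]
    exact sum_le_sum fun x _ => hfib x
  have hle : ∀ x : G, 4 * N ^ 2 * F x ≤
      (if x = 1 then 4 * N ^ 2 * S.card else 0) +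
        (if x ∈ Subgroup.center G then 4 * N ^ 2 * n else 0) + n := by
    intro x
    simp only [F]
    by_cases hx : x = 1
    · simp only [if_pos hx]; exact (Nat.le_add_right _ _).trans (Nat.le_add_right _ _)
    · simp only [if_neg hx]
      by_cases hz : x ∈ Subgroup.center G
      · rw [if_pos hz]
        have := Nat.mul_le_mul_left (4 * N ^ 2)
          ((Subgroup.centralizer ({x} : Set G)).card_le_card_group)
        exact (this.trans (Nat.le_add_left _ _)).trans (Nat.le_add_right _ _)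
      · exact (hcon x hz).le.trans (Nat.le_add_left _ _)
  have htot : 4 * N ^ 2 * (S.card * S.card) ≤ 4 * N ^ 2 * S.card + 4 * N ^ 3 * n + n * n := by
    refine (Nat.mul_le_mul_left _ hsum).trans ?_
    rw [mul_sum]
    refine (sum_le_sum fun x _ => hle x).trans ?_
    rw [sum_add_distrib, sum_add_distrib, sum_ite_eq' univ (1 : G), if_pos (mem_univ _),
      ← sum_filter, sum_const, sum_const, smul_eq_mul, smul_eq_mul]
    refine Nat.add_le_add (Nat.add_le_add_left ?_ _) ?_
    · have hz : (univ.filter (· ∈ Subgroup.center G)).card ≤ N := by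
        refine le_trans ?_ hN
        rw [Nat.card_eq_fintype_card, Fintype.card_subtype]
        exact card_le_card fun x hx => mem_filter.2 ⟨mem_univ _,
          Subgroup.mem_centralizer_singleton_iff.2
            (Subgroup.mem_center_iff.1 (mem_filter.1 hx).2 t).symm⟩
      refine (Nat.mul_le_mul_right _ hz).trans_eq ?_
      ring
    · rw [card_univ, ← Nat.card_eq_fintype_card]
  have h1 : n ≤ S.card * N := hS ▸ Nat.mul_le_mul_left _ hN
  have h2 : S.card ≤ n := by
    rw [← hS]; exact Nat.le_mul_of_pos_right _ Nat.card_pos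
  have hN1 : 1 ≤ N := le_trans Nat.card_pos hN
  nlinarith [Nat.mul_le_mul h1 h1, Nat.mul_le_mul_left (4 * N ^ 2) h2,
    Nat.mul_le_mul_left (4 * N ^ 2) hN1]

/-- A normal subgroup of bounded order and even order, when the odd normal subgroups are trivial. -/
theorem exists_bounded_normal {t : G} (ht : orderOf t = 2) {N a : ℕ}
    (hN : Nat.card (Subgroup.centralizer ({t} : Set G)) ≤ N) (hbig : 4 * N ^ 3 < Nat.card G)
    (ha : (Nat.card G).factorization 2 ≤ a)
    (hodd : ∀ R : Subgroup G, R.Normal → Odd (Nat.card R) → R = ⊥) :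
    ∃ Y : Subgroup G, Y.Normal ∧ Even (Nat.card Y) ∧
      Nat.card Y ≤ 2 ^ a * (4 * N ^ 2).factorial := by
  classical
  obtain ⟨x, hx, hxC⟩ := exists_small_noncentral_class ht hN hbig
  set C := Subgroup.centralizer ({x} : Set G)
  set K := C.normalCore
  have hK : K.index ≤ (4 * N ^ 2).factorial := by
    have h1 : C.index ≤ 4 * N ^ 2 := by
      refine Nat.le_of_mul_le_mul_left ?_ (Nat.card_pos (α := C))
      rw [Subgroup.card_mul_index, mul_comm]
      exact hxC
    have h2 : K.index ∣ C.index.factorial := by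
      have h3 : K.index ∣ Nat.card (Equiv.Perm (G ⧸ C)) := by
        rw [show K = (MulAction.toPermHom G (G ⧸ C)).ker from Subgroup.normalCore_eq_ker C,
          Subgroup.index_ker]
        exact Subgroup.card_subgroup_dvd_card _
      rwa [Nat.card_perm] at h3
    exact (Nat.le_of_dvd (Nat.factorial_pos _) h2).trans (Nat.factorial_le h1)
  set Y := Subgroup.normalClosure ({x} : Set G)
  have hYn : Y.Normal := Subgroup.normalClosure_normal
  have hYK : Y ≤ Subgroup.centralizer (K : Set G) :=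
    Subgroup.normalClosure_le_normal (Set.singleton_subset_iff.2
      (Subgroup.mem_centralizer_iff.2 fun k hk =>
        Subgroup.mem_centralizer_singleton_iff.1 (C.normalCore_le hk)))
  set Z := K ⊓ Subgroup.centralizer (K : Set G)
  have hZcomm : ∀ u ∈ Z, ∀ v ∈ Z, u * v = v * u := fun u hu v hv =>
    Subgroup.mem_centralizer_iff.1 (Subgroup.mem_inf.1 hv).2 u (Subgroup.mem_inf.1 hu).1
  haveI : Z.Normal := Subgroup.normal_inf_normal K _
  set m := ordCompl[2] (Nat.card G) with hm
  let R : Subgroup G :=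
    { carrier := {u | u ∈ Z ∧ u ^ m = 1}
      one_mem' := ⟨Z.one_mem, one_pow m⟩
      mul_mem' := fun {u v} hu hv => ⟨Z.mul_mem hu.1 hv.1, by
        rw [(show Commute u v from hZcomm u hu.1 v hv.1).mul_pow, hu.2, hv.2, one_mul]⟩
      inv_mem' := fun {u} hu => ⟨Z.inv_mem hu.1, by rw [inv_pow, hu.2, inv_one]⟩ }
  have hRn : R.Normal := ⟨fun u hu g =>
    ⟨(‹Z.Normal›).conj_mem u hu.1 g, by rw [conj_pow, hu.2, mul_one, mul_inv_cancel]⟩⟩
  have hm2 : ¬ 2 ∣ m := Nat.not_dvd_ordCompl Nat.prime_two Nat.card_pos.ne'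
  have hRodd : Odd (Nat.card R) := by
    rw [← Nat.not_even_iff_odd, even_iff_two_dvd]
    intro h
    haveI : Fact (Nat.Prime 2) := ⟨Nat.prime_two⟩
    obtain ⟨r, hr⟩ := exists_prime_orderOf_dvd_card' (G := R) 2 h
    rw [← Subgroup.orderOf_coe] at hr
    exact hm2 (hr ▸ orderOf_dvd_of_pow_eq_one r.2.2)
  have hR := hodd R hRn hRodd
  have hZ2 : Nat.card Z ≤ 2 ^ a := by
    have hpg : IsPGroup 2 Z := fun u => ⟨(Nat.card G).factorization 2, Subtype.ext (by
      have hmem : ((u : G) ^ 2 ^ (Nat.card G).factorization 2) ∈ R :=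
        ⟨Z.pow_mem u.2 _, by rw [← pow_mul, hm, Nat.ordProj_mul_ordCompl_eq_self]; exact pow_card_eq_one'⟩
      rw [hR, Subgroup.mem_bot] at hmem
      simpa using hmem)⟩
    haveI : Fact (Nat.Prime 2) := ⟨Nat.prime_two⟩
    obtain ⟨k, hk⟩ := IsPGroup.iff_card.1 hpg
    rw [hk]
    refine Nat.pow_le_pow_right (by norm_num) (le_trans ?_ ha)
    refine (Nat.Prime.pow_dvd_iff_le_factorization Nat.prime_two Nat.card_pos.ne').1 ?_
    exact hk ▸ Subgroup.card_subgroup_dvd_card Z
  refine ⟨Y, hYn, ?_, ?_⟩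
  · rw [← Nat.not_odd_iff_even]
    intro ho
    apply hx
    have hxY : x ∈ Y := Subgroup.subset_normalClosure rfl
    rw [hodd Y hYn ho, Subgroup.mem_bot] at hxY
    rw [hxY]; exact Subgroup.one_mem _
  · calc Nat.card Y = Nat.card (K.subgroupOf Y) * (K.subgroupOf Y).index :=
          (Subgroup.card_mul_index _).symm
      _ ≤ Nat.card Z * K.index := by
          refine Nat.mul_le_mul ?_ (Nat.le_of_dvd (Nat.pos_of_ne_zero
            Subgroup.index_ne_zero_of_finite) (Subgroup.relIndex_dvd_index_of_normal K Y))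
          exact Nat.card_le_card_of_injective
            (fun u => (⟨((u : Y) : G), Subgroup.mem_inf.2 ⟨u.2, hYK (u : Y).2⟩⟩ : Z))
            (fun u v h => Subtype.ext (Subtype.ext (congrArg Subtype.val h :)))
      _ ≤ _ := Nat.mul_le_mul hZ2 hK

end Quotient

theorem orderOf_mk_eq_two {G : Type*} [Group G] (Y : Subgroup G) [Y.Normal] {v : G}
    (hv : orderOf v = 2) (hY : v ∉ Y) : orderOf (v : G ⧸ Y) = 2 := by
  haveI : Fact (Nat.Prime 2) := ⟨Nat.prime_two⟩
  refine orderOf_eq_prime ?_ (fun h => hY ((QuotientGroup.eq_one_iff v).1 h))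
  have h := pow_orderOf_eq_one v
  rw [hv] at h
  rw [← QuotientGroup.mk_pow, h, QuotientGroup.mk_one]

/-- A group with a four group whose involutions have bounded centralizers has bounded order. -/
theorem exists_card_le_of_klein (a : ℕ) : ∀ N : ℕ, ∃ B : ℕ, ∀ (G : Type u) [Group G] [Finite G],
    (Nat.card G).factorization 2 ≤ a → ∀ t s : G, orderOf t = 2 → orderOf s = 2 →
      orderOf (t * s) = 2 → t * s = s * t →
      Nat.card (Subgroup.centralizer ({t} : Set G)) ≤ N →
      Nat.card (Subgroup.centralizer ({s} : Set G)) ≤ N →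
      Nat.card (Subgroup.centralizer ({t * s} : Set G)) ≤ N → Nat.card G ≤ B := by
  haveI : Fact (Nat.Prime 2) := ⟨Nat.prime_two⟩
  induction a with
  | zero =>
    refine fun N => ⟨0, fun G _ _ ha t s ht _ _ _ _ _ _ => absurd ha ?_⟩
    have h : 2 ∣ Nat.card G := ht ▸ orderOf_dvd_natCard t
    have := Nat.prime_two.factorization_pos_of_dvd Nat.card_pos.ne' h
    omega
  | succ a ih =>
    intro N
    set N1 := N ^ 3 * N
    set y := 2 ^ (a + 1) * (4 * N1 ^ 2).factorial
    obtain ⟨B', hB'⟩ := ih (y * N1)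
    refine ⟨N ^ 3 * (4 * N1 ^ 3 + N1 * y + y * B'), fun G _ _ ha t s ht hs hts hc hNt hNs hNts => ?_⟩
    have hsq : ∀ v : G, orderOf v = 2 → v * v = 1 := fun v hv => by
      have h := pow_orderOf_eq_one v
      rwa [hv, pow_two] at h
    obtain ⟨R, ⟨hRn, hRodd⟩, hRmax⟩ := (Set.toFinite {R : Subgroup G | R.Normal ∧ Odd (Nat.card R)}
      ).exists_maximal ⟨⊥, Subgroup.normal_bot, by simp⟩
    haveI := hRn
    have hR : Nat.card R ≤ N ^ 3 := by
      refine (card_odd_le hRodd (hsq t ht) (hsq s hs) hc (fun w hw => hRn.conj_mem w hw t)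
        (fun w hw => hRn.conj_mem w hw s)).trans ?_
      calc _ ≤ N * (N * N) := Nat.mul_le_mul hNt (Nat.mul_le_mul hNs hNts)
        _ = N ^ 3 := by ring
    have hnotR : ∀ v : G, orderOf v = 2 → v ∉ R := fun v hv hmem => by
      have := Subgroup.orderOf_dvd_natCard R hmem
      rw [hv] at this
      exact (Nat.not_even_iff_odd.2 hRodd) (even_iff_two_dvd.2 this)
    suffices hQ : Nat.card (G ⧸ R) ≤ 4 * N1 ^ 3 + N1 * y + y * B' by
      rw [Subgroup.card_eq_card_quotient_mul_card_subgroup R, mul_comm]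
      exact Nat.mul_le_mul hR hQ
    have hcen : ∀ v : G, Nat.card (Subgroup.centralizer ({v} : Set G)) ≤ N →
        Nat.card (Subgroup.centralizer ({(v : G ⧸ R)} : Set (G ⧸ R))) ≤ N1 := fun v hv =>
      (card_centralizer_quotient_le R v).trans (Nat.mul_le_mul hR hv)
    have hodd : ∀ S : Subgroup (G ⧸ R), S.Normal → Odd (Nat.card S) → S = ⊥ := by
      intro S hS hSodd
      set T := S.comap (QuotientGroup.mk' R)
      have hle : R ≤ T := fun r hr => by
        show (r : G ⧸ R) ∈ S
        rw [(QuotientGroup.eq_one_iff r).2 hr]; exact S.one_mem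
      have hTodd : Odd (Nat.card T) := by
        have h1 : Nat.card T = Nat.card (R.subgroupOf T) * (R.subgroupOf T).index :=
          (Subgroup.card_mul_index _).symm
        rw [Nat.card_congr (Subgroup.subgroupOfEquivOfLe hle).toEquiv] at h1
        rw [h1]
        refine hRodd.mul (hSodd.of_dvd_nat ?_)
        rw [Subgroup.index]
        refine dvd_of_eq (Nat.card_congr (Equiv.ofBijective
          (Quotient.lift (fun u : T => (⟨QuotientGroup.mk' R u, u.2⟩ : S)) ?_) ⟨?_, ?_⟩))
        · intro u v huv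
          replace huv := QuotientGroup.leftRel_apply.1 huv
          exact Subtype.ext ((QuotientGroup.eq).2 (Subgroup.mem_subgroupOf.1 huv))
        · intro u v
          induction u using Quotient.inductionOn with
          | _ u =>
            induction v using Quotient.inductionOn with
            | _ v =>
              intro huv
              refine Quotient.sound (QuotientGroup.leftRel_apply.2 ?_)
              exact Subgroup.mem_subgroupOf.2 ((QuotientGroup.eq).1 (congrArg Subtype.val huv))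
        · rintro ⟨z, hz⟩
          obtain ⟨g, rfl⟩ := QuotientGroup.mk'_surjective R z
          exact ⟨Quotient.mk _ ⟨g, hz⟩, rfl⟩
      have := hRmax ⟨hS.comap _, hTodd⟩ hle
      rw [eq_bot_iff]
      intro z hz
      obtain ⟨g, rfl⟩ := QuotientGroup.mk'_surjective R z
      exact (QuotientGroup.eq_one_iff g).2 (this hz)
    have haR : (Nat.card (G ⧸ R)).factorization 2 ≤ a + 1 := le_trans
      ((Nat.factorization_le_iff_dvd Nat.card_pos.ne' Nat.card_pos.ne').2
        (Subgroup.card_quotient_dvd_card R) 2) ha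
    by_cases hbig : 4 * N1 ^ 3 < Nat.card (G ⧸ R)
    swap
    · omega
    set t1 : G ⧸ R := (t : G ⧸ R)
    set s1 : G ⧸ R := (s : G ⧸ R)
    obtain ⟨Y, hYn, hYe, hYle⟩ :=
      exists_bounded_normal (orderOf_mk_eq_two R ht (hnotR t ht)) (hcen t hNt) hbig haR hodd
    haveI := hYn
    have hcase : ∀ v : G ⧸ R, v ∈ Y →
        Nat.card (Subgroup.centralizer ({v} : Set (G ⧸ R))) ≤ N1 →
        Nat.card (G ⧸ R) ≤ N1 * y := fun v hv hvN => by
      rw [← Involutions.card_isConj_mul_card_centralizer v, mul_comm]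
      refine Nat.mul_le_mul hvN (le_trans ?_ hYle)
      refine Nat.card_le_card_of_injective (fun g => (⟨g.1, ?_⟩ : Y))
        (fun g g' h => Subtype.ext (congrArg Subtype.val h :))
      obtain ⟨c, hc'⟩ := isConj_iff.1 g.2
      rw [← hc']; exact hYn.conj_mem v hv c
    by_cases htY : t1 ∈ Y
    · have := hcase t1 htY (hcen t hNt); omega
    by_cases hsY : s1 ∈ Y
    · have := hcase s1 hsY (hcen s hNs); omega
    by_cases htsY : t1 * s1 ∈ Y
    · have := hcase _ htsY (hcen (t * s) hNts); omega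
    have hlt : (Nat.card ((G ⧸ R) ⧸ Y)).factorization 2 ≤ a := by
      have h1 := Subgroup.card_eq_card_quotient_mul_card_subgroup Y
      have h2 : (Nat.card (G ⧸ R)).factorization 2 =
          (Nat.card ((G ⧸ R) ⧸ Y)).factorization 2 + (Nat.card Y).factorization 2 := by
        rw [h1, Nat.factorization_mul Nat.card_pos.ne' Nat.card_pos.ne', Finsupp.add_apply]
      have := Nat.prime_two.factorization_pos_of_dvd Nat.card_pos.ne' (even_iff_two_dvd.1 hYe)
      omega
    have hcen' : ∀ v : G ⧸ R, Nat.card (Subgroup.centralizer ({v} : Set (G ⧸ R))) ≤ N1 →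
        Nat.card (Subgroup.centralizer ({(v : (G ⧸ R) ⧸ Y)} : Set ((G ⧸ R) ⧸ Y))) ≤ y * N1 :=
      fun v hv => (card_centralizer_quotient_le Y v).trans (Nat.mul_le_mul hYle hv)
    have hQ := hB' ((G ⧸ R) ⧸ Y) hlt (t1 : (G ⧸ R) ⧸ Y) (s1 : (G ⧸ R) ⧸ Y)
      (orderOf_mk_eq_two Y (orderOf_mk_eq_two R ht (hnotR t ht)) htY)
      (orderOf_mk_eq_two Y (orderOf_mk_eq_two R hs (hnotR s hs)) hsY)
      (orderOf_mk_eq_two Y (orderOf_mk_eq_two R hts (hnotR _ hts)) htsY)
      (by rw [← QuotientGroup.mk_mul, ← QuotientGroup.mk_mul]; congr 1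
          exact congrArg (fun g : G => (g : G ⧸ R)) hc)
      (hcen' t1 (hcen t hNt)) (hcen' s1 (hcen s hNs)) (hcen' (t1 * s1) (hcen (t * s) hNts))
    rw [Subgroup.card_eq_card_quotient_mul_card_subgroup Y, mul_comm]
    exact (Nat.mul_le_mul hYle hQ).trans (Nat.le_add_left _ _)

end CfsgLib.BrauerCharacters
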