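import Mathlib.GroupTheory.ClassEquation
import Mathlib.Algebra.Order.Archimedean.Real.Basic
import Mathlib.Data.Rat.Floor
import Mathlib.GroupTheory.Index
import Mathlib.Algebra.BigOperators.Field
import Mathlib.Tactic

/-!
# Landau's theorem

A finite group with at most `k` conjugacy classes has order bounded in terms of `k`.
-/

set_option autoImplicit false

namespace CfsgLib.BrauerCharacters

/-- Bounded length representations of a rational number as a sum of reciprocals of positive
integers have bounded entries. -/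
theorem exists_bound_of_sum_inv (k : ℕ) : ∀ q : ℚ, ∃ N : ℕ, ∀ s : Multiset ℕ,
    Multiset.card s ≤ k → (∀ c ∈ s, 0 < c) → (s.map fun c : ℕ => ((c : ℚ))⁻¹).sum = q →
    ∀ c ∈ s, c ≤ N := by
  induction k with
  | zero =>
    intro q
    refine ⟨0, fun s hs _ _ c hc => ?_⟩
    have : 0 < Multiset.card s := Multiset.card_pos_iff_exists_mem.mpr ⟨c, hc⟩
    omega
  | succ k ih =>
    intro q
    choose F hF using fun c : ℕ => ih (q - (c : ℚ)⁻¹)
    refine ⟨(Finset.range (⌊((k + 1 : ℕ) : ℚ) / q⌋₊ + 1)).sup fun c => max c (F c), ?_⟩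
    intro s hs hpos hsum c hc
    obtain ⟨d, hd, hdmin⟩ := Finset.exists_min_image s.toFinset id ⟨c, Multiset.mem_toFinset.mpr hc⟩
    rw [Multiset.mem_toFinset] at hd
    have hd0 : (0 : ℚ) < d := by exact_mod_cast hpos d hd
    have hle : q ≤ ((k + 1 : ℕ) : ℚ) * (d : ℚ)⁻¹ := by
      rw [← hsum]
      refine (Multiset.sum_le_card_nsmul _ ((d : ℚ)⁻¹) ?_).trans ?_
      · intro x hx
        obtain ⟨e, he, rfl⟩ := Multiset.mem_map.mp hx
        have : (d : ℚ) ≤ e := by exact_mod_cast hdmin e (Multiset.mem_toFinset.mpr he)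
        gcongr
      · rw [Multiset.card_map, nsmul_eq_mul]
        gcongr
    obtain ⟨t, rfl⟩ := Multiset.exists_cons_of_mem hd
    rw [Multiset.map_cons, Multiset.sum_cons] at hsum
    have hq : 0 < q := by
      rw [← hsum]
      refine add_pos_of_pos_of_nonneg (by positivity) (Multiset.sum_nonneg ?_)
      intro x hx
      obtain ⟨e, -, rfl⟩ := Multiset.mem_map.mp hx
      positivity
    have hdm : d ∈ Finset.range (⌊((k + 1 : ℕ) : ℚ) / q⌋₊ + 1) := by
      rw [Finset.mem_range, Nat.lt_succ_iff, Nat.le_floor_iff (by positivity), le_div_iff₀ hq]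
      rw [← div_eq_mul_inv, le_div_iff₀ hd0] at hle
      linarith
    refine le_trans ?_ (Finset.le_sup (f := fun c => max c (F c)) hdm)
    rcases Multiset.mem_cons.mp hc with rfl | hct
    · exact le_max_left _ _
    · refine le_trans (hF d t ?_ (fun e he => hpos e (Multiset.mem_cons_of_mem he)) ?_ c hct)
        (le_max_right _ _)
      · simpa using hs
      · linarith

/-- **Landau's theorem**: the order of a finite group is bounded in terms of its number of
conjugacy classes. -/
theorem exists_card_le_of_card_conjClasses_le (k : ℕ) :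
    ∃ N : ℕ, ∀ (G : Type*) [Group G] [Finite G], Nat.card (ConjClasses G) ≤ k → Nat.card G ≤ N := by
  obtain ⟨N, hN⟩ := exists_bound_of_sum_inv k 1
  refine ⟨N, fun G _ _ hk => ?_⟩
  classical
  let _ := Fintype.ofFinite G
  let _ := Fintype.ofFinite (ConjClasses G)
  let z : G → ℕ := fun g => Nat.card (MulAction.stabilizer (ConjAct G) g)
  have hz : ∀ g : G, Nat.card (ConjClasses.mk g).carrier * z g = Nat.card G := by
    intro g
    rw [← ConjAct.orbit_eq_carrier_conjClasses, Nat.card_coe_set_eq,
      ← MulAction.index_stabilizer]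
    simp only [z]
    rw [Subgroup.index_mul_card]
    exact Nat.card_congr ConjAct.ofConjAct.toEquiv
  let s : Multiset ℕ := (Finset.univ : Finset (ConjClasses G)).val.map fun C => z C.out
  have hs : (s.map fun c : ℕ => ((c : ℚ))⁻¹).sum = 1 := by
    simp only [s, Multiset.map_map, Function.comp_def]
    show ∑ C : ConjClasses G, ((z C.out : ℕ) : ℚ)⁻¹ = 1
    have hG : (Nat.card G : ℚ) ≠ 0 := Nat.cast_ne_zero.mpr Nat.card_pos.ne'
    have h1 : ∀ C : ConjClasses G, ((z C.out : ℕ) : ℚ)⁻¹ =
        (Nat.card C.carrier : ℚ) * (Nat.card G : ℚ)⁻¹ := by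
      intro C
      have := hz C.out
      rw [show ConjClasses.mk C.out = C from Quotient.out_eq C] at this
      rw [← this]
      push_cast
      have hC : (Nat.card C.carrier : ℚ) ≠ 0 := by
        intro h
        rw [Nat.cast_eq_zero] at h
        rw [h, zero_mul] at this
        exact Nat.card_pos.ne this
      field_simp
    rw [Finset.sum_congr rfl fun C _ => h1 C, ← Finset.sum_mul, ← Nat.cast_sum]
    have h2 : ∑ C : ConjClasses G, Nat.card C.carrier = Nat.card G := by
      rw [← Group.sum_card_conj_classes_eq_card G, finsum_eq_sum_of_fintype]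
      simp [Nat.card_coe_set_eq]
    rw [h2, mul_inv_cancel₀ hG]
  have hmem : z (ConjClasses.mk (1 : G)).out ∈ s := by
    simp only [s, Multiset.mem_map]
    exact ⟨_, Finset.mem_univ_val _, rfl⟩
  have hle := hN s (by simpa [s, Nat.card_eq_fintype_card] using hk) ?_ hs _ hmem
  · refine le_trans (le_of_eq ?_) hle
    have h1 : (ConjClasses.mk (1 : G)).out = 1 := by
      have : IsConj ((ConjClasses.mk (1 : G)).out) 1 :=
        ConjClasses.mk_eq_mk_iff_isConj.mp (Quotient.out_eq _)
      exact isConj_one_left.mp this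
    rw [h1]
    simp only [z]
    rw [show MulAction.stabilizer (ConjAct G) (1 : G) = ⊤ from ?_]
    · rw [Subgroup.card_top]
      exact Nat.card_congr ConjAct.toConjAct.toEquiv
    · ext g; simp [ConjAct.smul_def]
  · intro c hc
    simp only [s, Multiset.mem_map] at hc
    obtain ⟨C, -, rfl⟩ := hc
    exact Nat.card_pos

end CfsgLib.BrauerCharacters
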