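import Cfsg.Agent.Lib.BrauerCharacters.PairKernel
import Cfsg.Agent.Lib.BrauerPairs.Local

/-!
# Block induction from a subgroup containing the centraliser of a pair
-/

set_option autoImplicit false

noncomputable section

namespace CfsgLib.BrauerCharacters

open MonoidAlgebra CfsgLib.BrauerPairs Cfsg

variable {G : Type*} [Group G] [Finite G] {p : ℕ} [Fact p.Prime] {M : Ideal AlgInt} [M.IsPrime]
  [CharP (Blocks.Res M) p]

/-- A common pair of a block of `K ≥ C(Q)` and a block of `G` shows that the first induces the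
second. -/
theorem isInducedBlock_of_pairOf {K : Subgroup G} {b : Set (IrrCharacter K)}
    {B : Set (IrrCharacter G)} (hb : IsPBlock M b) (hB : IsPBlock M B) {Q : Subgroup G}
    {e : MonoidAlgebra (Blocks.Res M) G} (hC : Subgroup.centralizer (Q : Set G) ≤ K)
    (he : PairOf p K (subIdem M K b) Q e) (he' : PairOf p ⊤ (redElem M (blockCoeff B)) Q e) :
    IsInducedBlock M K b B := by
  classical
  haveI := Fintype.ofFinite G
  haveI := Fintype.ofFinite K
  refine ⟨hb, hB, fun ξ hξ χ hχ g => ?_⟩
  have hQK := he.1.2.1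
  set β : K → ℂ := fun h => if IsConj g (h : G) then 1 else 0 with hβ
  have hloc : ∀ h, MemLocalRing M (β h) := fun h => by
    simp only [β]; split_ifs
    · exact (Blocks.locRing M).one_mem
    · exact (Blocks.locRing M).zero_mem
  have hcl : IsClassFunction K β := fun a c => by
    simp only [β, Subgroup.coe_mul, Subgroup.coe_inv, Blocks.isConj_conj_iff]
  set z := Blocks.classMap (Blocks.red M) (locElem β hloc hcl) with hz
  set S : MonoidAlgebra (Blocks.Res M) G := Blocks.classSum (Blocks.Res M) g with hS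
  have hmap : mapG K.subtype (z : MonoidAlgebra (Blocks.Res M) K) = trunc K S := by
    rw [hz, coe_classMap_red_locElem]
    ext x
    by_cases hx : x ∈ K
    · obtain ⟨h, rfl⟩ : ∃ h : K, K.subtype h = x := ⟨⟨x, hx⟩, rfl⟩
      rw [coeff_mapG_apply K.subtype_injective, coeff_trunc_of_mem hx, coeff_redElem, hS,
        Blocks.coeff_classSum, show β h = if IsConj g (K.subtype h) then 1 else 0 from rfl]
      split_ifs
      · rw [redC_of_mem (Blocks.locRing M).one_mem]; exact map_one _
      · exact redC_zero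
    · rw [coeff_mapG_of_not_mem _ (by rwa [Subgroup.range_subtype]), coeff_trunc_of_not_mem hx]
  have hval : ((Blocks.omegaLoc M ξ (locElem β hloc hcl) : Blocks.locRing M) : ℂ) =
      inducedCentralChar K (ξ : K → ℂ) g := by
    rw [coe_omegaLoc_locElem, inducedCentralChar,
      finsum_mem_eq_finite_toFinset_sum _ (Set.toFinite _), Finset.sum_div]
    simp only [β, ite_mul, one_mul, zero_mul, ite_div, zero_div, ← Finset.sum_filter]
    refine Finset.sum_congr ?_ fun _ _ => rfl
    ext h
    simp
  set lam := Blocks.omegaRes M ξ z with hlam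
  set mu := Blocks.omegaRes M χ (Blocks.classSumA (Blocks.Res M) g) with hmu
  suffices hlm : lam = mu by
    rw [hlam, hmu, hz, Blocks.omegaRes_classMap, Blocks.omegaRes_classSumA,
      Blocks.red_eq_red_iff, hval] at hlm
    exact hlm
  -- the two nilpotent elements
  have hb' := isBlockIdem_subIdem (M := M) hb
  have hBi := isBlockIdem_redElem_blockCoeff (M := M) hB
  have h1 : IsNilpotent ((trunc K S - algebraMap _ _ lam) * subIdem M K b) := by
    have h := (omegaRes_eq_zero_iff_nilpotent hb hξ (z - algebraMap _ _ lam)).1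
      (by rw [map_sub, Blocks.omegaRes_algebraMap, sub_self])
    have h' := h.map (mapG (k := Blocks.Res M) K.subtype)
    rw [map_mul, AddSubgroupClass.coe_sub, Subalgebra.coe_algebraMap, map_sub,
      AlgHom.commutes, hmap, ← redElem_subgroupBlockCoeff] at h'
    exact h'
  have h2 : IsNilpotent ((S - algebraMap _ _ mu) * redElem M (blockCoeff B)) := by
    have h := (omegaRes_eq_zero_iff_nilpotent hB hχ
      (Blocks.classSumA (Blocks.Res M) g - algebraMap _ _ mu)).1
      (by rw [map_sub, Blocks.omegaRes_algebraMap, sub_self])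
    rwa [AddSubgroupClass.coe_sub, Subalgebra.coe_algebraMap, Blocks.coe_classSumA] at h
  -- their images at the pair
  have hSQ : S ∈ fixedBy (Blocks.Res M) (⊤ : Subgroup G) :=
    isClassElem_iff_fixed.1 (Blocks.isClassElem_classSum g)
  have hSK : trunc K S ∈ fixedBy (Blocks.Res M) K :=
    trunc_mem_fixedBy Subgroup.le_normalizer (fixedBy_anti le_top hSQ)
  have hcen : cenIn ⊤ Q = Subgroup.centralizer (Q : Set G) := cenIn_top Q
  have hec : e ∈ ctr (Blocks.Res M) (Subgroup.centralizer (Q : Set G)) := hcen ▸ he'.1.2.2.mem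
  have key : ∀ (u : MonoidAlgebra (Blocks.Res M) G) (L : Subgroup G) (bl : MonoidAlgebra _ G),
      Q ≤ L → Subgroup.centralizer (Q : Set G) ≤ L → u ∈ fixedBy (Blocks.Res M) L →
      bl ∈ fixedBy (Blocks.Res M) L → brau Q bl * e = e → IsNilpotent (u * bl) →
      IsNilpotent (brau Q u * e) := by
    intro u L bl hQL hCL hu hbl hble hn
    obtain ⟨m, hm⟩ := hn
    have huQ := fixedBy_anti hQL hu
    have hblQ := fixedBy_anti hQL hbl
    have hcomm : Commute (brau Q u) e :=
      ctr_commute (mem_ctr.2 ⟨trunc_mem_supp _ _,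
        trunc_mem_fixedBy Subgroup.le_normalizer (fixedBy_anti hCL hu)⟩) hec
    have hpow : ∀ i, brau Q ((u * bl) ^ i) * e = (brau Q u) ^ i * e := by
      intro i
      induction i with
      | zero => rw [pow_zero, pow_zero, trunc_eq_self (one_mem _)]
      | succ i ih =>
        rw [pow_succ, trunc_centralizer_mul he.1.1 (pow_mem (mul_mem huQ hblQ) i)
          (mul_mem huQ hblQ), trunc_centralizer_mul he.1.1 huQ hblQ, mul_assoc, mul_assoc, hble,
          hcomm.eq, ← mul_assoc, ih, mul_assoc, ← hcomm.eq, ← mul_assoc, ← pow_succ]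
    refine ⟨m + 1, ?_⟩
    rw [hcomm.mul_pow]
    have h0 := hpow m
    rw [hm, map_zero, zero_mul] at h0
    rw [pow_succ' (brau Q u), mul_assoc, IsIdempotentElem.pow_succ_eq m he.1.2.2.mul_self, ← h0,
      mul_zero]
  have n1 := key (trunc K S - algebraMap _ _ lam) K _ hQK hC
    (sub_mem hSK ((fixedBy _ K).algebraMap_mem _)) (mem_ctr.1 hb'.mem).2 he.2 h1
  have n2 := key (S - algebraMap _ _ mu) ⊤ _ le_top le_top
    (sub_mem hSQ ((fixedBy _ (⊤ : Subgroup G)).algebraMap_mem _)) (mem_ctr.1 hBi.mem).2 he'.2 h2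
  rw [map_sub, sub_mul, trunc_eq_self ((supp _ _).algebraMap_mem _), trunc_trunc hC] at n1
  rw [map_sub, sub_mul, trunc_eq_self ((supp _ _).algebraMap_mem _)] at n2
  by_contra hne
  have hSe : Commute (brau Q S) e :=
    ctr_commute (mem_ctr.2 ⟨trunc_mem_supp _ _,
      trunc_mem_fixedBy Subgroup.le_normalizer (fixedBy_anti le_top hSQ)⟩) hec
  have hc : ∀ r s : Blocks.Res M, Commute (brau Q S * e - algebraMap _ _ r * e)
      (brau Q S * e - algebraMap _ _ s * e) := by
    intro r s
    have he1 : Commute (brau Q S * e) e := hSe.mul_left (Commute.refl e)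
    simp only [← Algebra.smul_def]
    exact ((Commute.refl _).sub_right (he1.smul_right s)).sub_left
      ((he1.symm.smul_left r).sub_right (((Commute.refl e).smul_left r).smul_right s))
  have n3 := (hc lam mu).isNilpotent_sub n1 n2
  rw [sub_sub_sub_cancel_left, ← sub_mul, ← map_sub, ← Algebra.smul_def] at n3
  obtain ⟨m, hm⟩ := n3
  have hne' : mu - lam ≠ 0 := sub_ne_zero.2 (Ne.symm hne)
  apply he.1.2.2.ne_zero
  have hsq : IsIdempotentElem e := he.1.2.2.mul_self
  rw [smul_pow] at hm
  rcases m with _ | m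
  · rw [pow_zero, pow_zero, one_smul] at hm
    rw [← one_mul e, hm, zero_mul]
  · rw [hsq.pow_succ_eq m] at hm
    exact (smul_eq_zero.1 hm).resolve_left (pow_ne_zero _ hne')

end CfsgLib.BrauerCharacters
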