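import Cfsg.Agent.Lib.BrauerPairs.InducedBridge
import Cfsg.Agent.Lib.BrauerPairs.BridgeDefect
import Cfsg.Agent.Lib.BrauerPairs.NormalP
import Cfsg.Agent.Lib.BGAppendix.PiCore
import Cfsg.Agent.Lib.BlockLocal.CanonicalChar
import Cfsg.Agent.Lib.CharTheory.Inflation

/-!
# Cores of order prime to `p` in the kernel of the block of a Brauer pair

For a normal inclusion `(Q, f) ≤ (R, e)` and an `R`-invariant normal subgroup `N` of `C(Q)` of
order prime to `p`, `N` fixes `f` exactly if `C_N(R)` fixes `e`.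
-/

set_option autoImplicit false
set_option linter.unusedSectionVars false

noncomputable section

namespace CfsgLib.BrauerCharacters

open MonoidAlgebra CfsgLib.BrauerPairs

section Alg

variable {k : Type*} [Field k] {G : Type*} [Group G] [Finite G]

/-- The sum of the elements of a subgroup. -/
def grpSum (k : Type*) [Field k] {G : Type*} [Group G] [Finite G] (N : Subgroup G) :
    MonoidAlgebra k G := by
  classical exact Blocks.ofFun fun g => if g ∈ N then (1 : k) else 0

theorem coeff_grpSum_of_mem {N : Subgroup G} {g : G} (h : g ∈ N) :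
    (grpSum k N).coeff g = 1 := by
  classical simp [grpSum, h]

theorem coeff_grpSum_of_notMem {N : Subgroup G} {g : G} (h : g ∉ N) :
    (grpSum k N).coeff g = 0 := by
  classical simp [grpSum, h]

theorem le_leftStab_grpSum (N : Subgroup G) : N ≤ leftStab (grpSum k N) := by
  intro n hn
  rw [mem_leftStab]
  ext g
  rw [coeff_single_mul_apply, one_mul]
  by_cases hg : g ∈ N
  · rw [coeff_grpSum_of_mem hg, coeff_grpSum_of_mem (N.mul_mem (N.inv_mem hn) hg)]
  · rw [coeff_grpSum_of_notMem hg, coeff_grpSum_of_notMem fun h => hg ?_]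
    simpa using N.mul_mem hn h

theorem grpSum_mem_supp {N K : Subgroup G} (h : N ≤ K) : grpSum k N ∈ supp k K :=
  fun _ hg => coeff_grpSum_of_notMem fun hgN => hg (h hgN)

theorem grpSum_mem_fixedBy {N H : Subgroup G} (h : H ≤ Subgroup.normalizer (N : Set G)) :
    grpSum k N ∈ fixedBy k H := by
  rw [mem_fixedBy_coeff]
  intro c hc g
  have hiff := Subgroup.mem_normalizer_iff.1 (h hc) g
  by_cases hg : g ∈ N
  · rw [coeff_grpSum_of_mem hg, coeff_grpSum_of_mem (hiff.1 hg)]
  · rw [coeff_grpSum_of_notMem hg, coeff_grpSum_of_notMem fun h' => hg (hiff.2 h')]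

theorem trunc_grpSum (H N : Subgroup G) : trunc H (grpSum k N) = grpSum k (N ⊓ H) := by
  ext g
  by_cases hH : g ∈ H
  · rw [coeff_trunc_of_mem hH]
    by_cases hN : g ∈ N
    · rw [coeff_grpSum_of_mem hN, coeff_grpSum_of_mem (Subgroup.mem_inf.2 ⟨hN, hH⟩)]
    · rw [coeff_grpSum_of_notMem hN, coeff_grpSum_of_notMem fun h => hN (Subgroup.mem_inf.1 h).1]
  · rw [coeff_trunc_of_not_mem hH, coeff_grpSum_of_notMem fun h => hH (Subgroup.mem_inf.1 h).2]

theorem grpSum_mul {N : Subgroup G} {e : MonoidAlgebra k G} (h : N ≤ leftStab e) :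
    grpSum k N * e = (Nat.card N : k) • e := by
  classical
  haveI := Fintype.ofFinite G
  ext g
  rw [Blocks.coeff_mul_eq_sum, MonoidAlgebra.coeff_smul, Finsupp.smul_apply, smul_eq_mul]
  rw [Finset.sum_congr rfl (g := fun x => if x ∈ N then e.coeff g else 0) fun x _ => ?_,
    ← Finset.sum_filter, Finset.sum_const, nsmul_eq_mul]
  · congr 2
    rw [Nat.card_eq_fintype_card, Fintype.card_subtype]
  · by_cases hx : x ∈ N
    · rw [coeff_grpSum_of_mem hx, if_pos hx, one_mul]
      conv_rhs => rw [← mem_leftStab.1 (h hx), coeff_single_mul_apply, one_mul]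
    · rw [coeff_grpSum_of_notMem hx, if_neg hx, zero_mul]

/-- The normalised sum of the elements of a subgroup. -/
def grpAvg (k : Type*) [Field k] {G : Type*} [Group G] [Finite G] (N : Subgroup G) :
    MonoidAlgebra k G := (Nat.card N : k)⁻¹ • grpSum k N

variable {p : ℕ} [Fact p.Prime] [CharP k p]

theorem card_cast_ne_zero {N : Subgroup G} (hN : ¬ p ∣ Nat.card N) : (Nat.card N : k) ≠ 0 := by
  rwa [Ne, CharP.cast_eq_zero_iff k p]

theorem single_mul_grpAvg {N : Subgroup G} {n : G} (hn : n ∈ N) :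
    single n (1 : k) * grpAvg k N = grpAvg k N := by
  rw [grpAvg, mul_smul_comm, mem_leftStab.1 (le_leftStab_grpSum N hn)]

theorem grpAvg_mul {N : Subgroup G} (hN : ¬ p ∣ Nat.card N) {e : MonoidAlgebra k G}
    (h : N ≤ leftStab e) : grpAvg k N * e = e := by
  rw [grpAvg, smul_mul_assoc, grpSum_mul h, inv_smul_smul₀ (card_cast_ne_zero hN)]

theorem grpAvg_mul_self {N : Subgroup G} (hN : ¬ p ∣ Nat.card N) :
    grpAvg k N * grpAvg k N = grpAvg k N :=
  grpAvg_mul hN fun _ hn => mem_leftStab.2 (single_mul_grpAvg hn)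

theorem le_leftStab_of_grpAvg_mul {N : Subgroup G} {e : MonoidAlgebra k G}
    (h : grpAvg k N * e = e) : N ≤ leftStab e := fun n hn => by
  rw [mem_leftStab]
  conv_lhs => rw [← h, ← mul_assoc, single_mul_grpAvg hn]
  exact h

variable {K Q R N : Subgroup G} {f e : MonoidAlgebra k G}

theorem grpAvg_mem_fixedBy {H : Subgroup G} (h : H ≤ Subgroup.normalizer (N : Set G)) :
    grpAvg k N ∈ fixedBy k H :=
  (fixedBy k H).smul_mem (grpSum_mem_fixedBy h) _

/-- From the top of a normal inclusion down. -/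
theorem le_leftStab_of_normalLE (h : NormalLE p K Q f R e) (hNC : N ≤ cenIn K Q)
    (hCN : cenIn K Q ≤ Subgroup.normalizer (N : Set G))
    (hRN : R ≤ Subgroup.normalizer (N : Set G)) (hp : ¬ p ∣ Nat.card N)
    (he : N ⊓ Subgroup.centralizer (R : Set G) ≤ leftStab e) : N ≤ leftStab f := by
  have hf := h.1.2.2
  have hxc : grpAvg k N ∈ ctr k (cenIn K Q) :=
    mem_ctr.2 ⟨(supp k _).smul_mem (grpSum_mem_supp hNC) _, grpAvg_mem_fixedBy hCN⟩
  refine le_leftStab_of_grpAvg_mul ?_
  rw [(ctr_commute hxc hf.mem).eq]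
  refine (hf.2.2.2 _ hxc (grpAvg_mul_self hp)).resolve_left fun h0 => h.2.1.2.2.ne_zero ?_
  rw [← (ctr_commute hxc hf.mem).eq] at h0
  have h1 := congrArg (fun z => brau R z * e) h0
  simp only [trunc_centralizer_mul h.2.1.1 (grpAvg_mem_fixedBy hRN) h.2.2.2.2.1, map_zero,
    zero_mul, mul_assoc, h.2.2.2.2.2] at h1
  rw [grpAvg, map_smul, trunc_grpSum, smul_mul_assoc, grpSum_mul he, smul_smul] at h1
  refine (smul_eq_zero.1 h1).resolve_left (mul_ne_zero (inv_ne_zero (card_cast_ne_zero hp)) ?_)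
  exact card_cast_ne_zero fun hd => hp (hd.trans (Subgroup.card_dvd_of_le inf_le_left))

/-- From the bottom of a normal inclusion up. -/
theorem inf_le_leftStab_of_normalLE (h : NormalLE p K Q f R e)
    (hRN : R ≤ Subgroup.normalizer (N : Set G)) (hp : ¬ p ∣ Nat.card N) (hf : N ≤ leftStab f) :
    N ⊓ Subgroup.centralizer (R : Set G) ≤ leftStab e := by
  intro n hn
  rw [mem_leftStab]
  have he : brau R (grpAvg k N) * e = e := by
    conv_lhs => rw [← h.2.2.2.2.2, ← mul_assoc,
      ← trunc_centralizer_mul h.2.1.1 (grpAvg_mem_fixedBy hRN) h.2.2.2.2.1, grpAvg_mul hp hf,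
      h.2.2.2.2.2]
  conv_lhs => rw [← he, grpAvg, map_smul, trunc_grpSum, smul_mul_assoc, mul_smul_comm, ← mul_assoc,
    mem_leftStab.1 (le_leftStab_grpSum _ hn)]
  rwa [grpAvg, map_smul, trunc_grpSum, smul_mul_assoc] at he

variable {π : Set ℕ}

/-- `O_{π'}(C(Q))` fixes `f`. -/
def CoreFix (π : Set ℕ) (Q : Subgroup G) (f : MonoidAlgebra k G) : Prop :=
  Cfsg.piCoreOf {q | q ∉ π} (Subgroup.centralizer (Q : Set G)) ≤ leftStab f

/-- `C(Q)` has a normal Hall `π'`-subgroup. -/
def CoreHall (π : Set ℕ) (Q : Subgroup G) : Prop :=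
  ∀ x ∈ Subgroup.centralizer (Q : Set G), (∀ q : ℕ, q.Prime → q ∣ orderOf x → q ∉ π) →
    x ∈ Cfsg.piCoreOf {q | q ∉ π} (Subgroup.centralizer (Q : Set G))

theorem not_dvd_card_piCore (hpπ : p ∈ π) (X : Subgroup G) :
    ¬ p ∣ Nat.card (Cfsg.piCoreOf {q | q ∉ π} X) := fun h =>
  BGAppendix.piSubgroup_piCoreOf _ X p Fact.out h hpπ

theorem le_normalizer_core {Q R : Subgroup G} (hR : R ≤ Subgroup.normalizer (Q : Set G)) :
    R ≤ Subgroup.normalizer
      (Cfsg.piCoreOf {q | q ∉ π} (Subgroup.centralizer (Q : Set G)) : Set G) :=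
  (hR.trans (normalizer_le_normalizer_cen Q)).trans
    (BGAppendix.normalizer_le_normalizer_piCoreOf _ _)

theorem CoreFix.of_normalLE (hpπ : p ∈ π) (h : NormalLE p ⊤ Q f R e) (he : CoreFix π R e) :
    CoreFix π Q f := by
  have hC := cenIn_top Q
  have hle : Subgroup.centralizer (R : Set G) ≤ Subgroup.centralizer (Q : Set G) :=
    Subgroup.centralizer_le h.2.2.1
  refine le_leftStab_of_normalLE h ?_ ?_ (le_normalizer_core h.2.2.2.1)
    (not_dvd_card_piCore hpπ _) ((BGAppendix.piCoreOf_inf_le hle).trans he)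
  · rw [hC]; exact BGAppendix.piCoreOf_le _ _
  · rw [hC]; exact BGAppendix.le_normalizer_piCoreOf _ _

theorem CoreFix.of_pairLE (hpπ : p ∈ π) {P : Subgroup G} {g : MonoidAlgebra k G}
    (h : PairLE p ⊤ Q f P g) (hg : CoreFix π P g) : CoreFix π Q f := by
  suffices ∀ x : Subgroup G × MonoidAlgebra k G,
      Relation.ReflTransGen (NormalRel p (⊤ : Subgroup G)) x (P, g) → CoreFix π x.1 x.2 from
    this _ h
  intro x hx
  induction hx using Relation.ReflTransGen.head_induction_on with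
  | refl => exact hg
  | head hac _ ih => exact CoreFix.of_normalLE hpπ hac ih

theorem CoreHall.mono (hQR : Q ≤ R) (h : CoreHall π Q) : CoreHall π R := by
  intro x hx hxπ
  have hle : Subgroup.centralizer (R : Set G) ≤ Subgroup.centralizer (Q : Set G) :=
    Subgroup.centralizer_le hQR
  exact BGAppendix.piCoreOf_inf_le hle (Subgroup.mem_inf.2 ⟨h x (hle hx) hxπ, hx⟩)

theorem mem_piCore_order {X : Subgroup G} {x : G} (hx : x ∈ Cfsg.piCoreOf {q | q ∉ π} X) :
    ∀ q : ℕ, q.Prime → q ∣ orderOf x → q ∉ π := fun q hq hd =>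
  BGAppendix.piSubgroup_piCoreOf _ X q hq (hd.trans (Subgroup.orderOf_dvd_natCard _ hx))

theorem CoreFix.to_normalLE (hpπ : p ∈ π) (h : NormalLE p ⊤ Q f R e) (hQ : CoreHall π Q)
    (hf : CoreFix π Q f) : CoreFix π R e := by
  intro x hx
  have hxC := BGAppendix.piCoreOf_le _ _ hx
  refine inf_le_leftStab_of_normalLE h (le_normalizer_core h.2.2.2.1) (not_dvd_card_piCore hpπ _)
    hf (Subgroup.mem_inf.2 ⟨hQ x (Subgroup.centralizer_le h.2.2.1 hxC) (mem_piCore_order hx), hxC⟩)

theorem CoreFix.to_pairLE (hpπ : p ∈ π) {P : Subgroup G} {g : MonoidAlgebra k G}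
    (h : PairLE p ⊤ Q f P g) (hQ : CoreHall π Q) (hf : CoreFix π Q f) : CoreFix π P g := by
  suffices ∀ x : Subgroup G × MonoidAlgebra k G,
      Relation.ReflTransGen (NormalRel p (⊤ : Subgroup G)) x (P, g) →
        CoreHall π x.1 → CoreFix π x.1 x.2 → CoreFix π P g from this _ h hQ hf
  intro x hx
  induction hx using Relation.ReflTransGen.head_induction_on with
  | refl => exact fun _ h => h
  | head hac _ ih =>
    exact fun hH hF => ih (hH.mono hac.2.2.1) (CoreFix.to_normalLE hpπ hac hH hF)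

theorem cj_piCoreOf_le (c : G) (σ : Set ℕ) (X : Subgroup G) :
    cj c (Cfsg.piCoreOf σ X) ≤ Cfsg.piCoreOf σ (cj c X) := by
  refine BGAppendix.le_piCoreOf (cj_le_cj (BGAppendix.piCoreOf_le σ X)) ?_
    (BGAppendix.piSubgroup_map (BGAppendix.piSubgroup_piCoreOf σ X) _)
  rw [cj_normalizer]
  exact cj_le_cj (BGAppendix.le_normalizer_piCoreOf σ X)

theorem CoreFix.conj (c : G) (h : CoreFix π Q f) : CoreFix π (cj c Q) (conjA c f) := by
  intro x hx
  have h1 : c⁻¹ * x * c ∈ Cfsg.piCoreOf {q | q ∉ π} (Subgroup.centralizer (Q : Set G)) := by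
    have h2 : cj c⁻¹ (Cfsg.piCoreOf {q | q ∉ π} (Subgroup.centralizer (cj c Q : Set G))) ≤
        Cfsg.piCoreOf {q | q ∉ π} (Subgroup.centralizer (Q : Set G)) := by
      refine (cj_piCoreOf_le c⁻¹ _ _).trans (le_of_eq ?_)
      rw [cj_centralizer, ← cj_mul, inv_mul_cancel, cj_one]
    exact h2 (by rw [mem_cj]; simpa [mul_assoc] using hx)
  rw [mem_leftStab]
  conv_rhs => rw [← mem_leftStab.1 (h h1), map_mul, conjA_single]
  simp [mul_assoc]

/-- The property passes between all pairs below a maximal pair and the maximal pair. -/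
theorem CoreFix.of_maxPair (hpπ : p ∈ π) {b : MonoidAlgebra k G} (hb : IsBlockIdem ⊤ b)
    {P : Subgroup G} {g : MonoidAlgebra k G} (hP : IsMaxPair p ⊤ b P g) (hg : CoreFix π P g)
    (hQ : PairOf p ⊤ b Q f) : CoreFix π Q f := by
  obtain ⟨c, -, hle⟩ := hQ.exists_conj_le hb hP
  have h := (CoreFix.of_pairLE hpπ hle hg).conj c⁻¹
  rwa [← cj_mul, inv_mul_cancel, cj_one, ← conjA_mul, inv_mul_cancel, conjA_one] at h

theorem CoreFix.to_maxPair (hpπ : p ∈ π) {b : MonoidAlgebra k G} (hb : IsBlockIdem ⊤ b)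
    {P : Subgroup G} {g : MonoidAlgebra k G} (hP : IsMaxPair p ⊤ b P g)
    (hQ : PairOf p ⊤ b Q f) (hH : CoreHall π Q) (hf : CoreFix π Q f) : CoreFix π P g := by
  obtain ⟨R, g', hR, hle⟩ := exists_isMaxPair_above hQ
  obtain ⟨c, -, rfl, rfl⟩ := hR.exists_conj hb hP
  exact (CoreFix.to_pairLE hpπ hle hH hf).conj c

/-- A normal subgroup of order prime to `p` fixes a block if its centralised part fixes a pair of
the block. -/
theorem le_leftStab_of_pairOf {b : MonoidAlgebra k G} (hb : IsBlockIdem K b)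
    (h : PairOf p K b Q e) (hNK : N ≤ K) (hKN : K ≤ Subgroup.normalizer (N : Set G))
    (hp : ¬ p ∣ Nat.card N) (he : N ⊓ Subgroup.centralizer (Q : Set G) ≤ leftStab e) :
    N ≤ leftStab b := by
  have hxc : grpAvg k N ∈ ctr k K :=
    mem_ctr.2 ⟨(supp k _).smul_mem (grpSum_mem_supp hNK) _, grpAvg_mem_fixedBy hKN⟩
  refine le_leftStab_of_grpAvg_mul ?_
  rw [(ctr_commute hxc hb.mem).eq]
  refine (hb.2.2.2 _ hxc (grpAvg_mul_self hp)).resolve_left fun h0 => h.1.2.2.ne_zero ?_
  rw [← (ctr_commute hxc hb.mem).eq] at h0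
  have h1 := congrArg (fun z => brau Q z * e) h0
  simp only [trunc_centralizer_mul h.1.1 (grpAvg_mem_fixedBy (h.1.2.1.trans hKN))
    (hb.fixed_of_le h.1.2.1), map_zero, zero_mul, mul_assoc, h.2] at h1
  rw [grpAvg, map_smul, trunc_grpSum, smul_mul_assoc, grpSum_mul he, smul_smul] at h1
  refine (smul_eq_zero.1 h1).resolve_left (mul_ne_zero (inv_ne_zero (card_cast_ne_zero hp)) ?_)
  exact card_cast_ne_zero fun hd => hp (hd.trans (Subgroup.card_dvd_of_le inf_le_left))

theorem le_leftStab_of_mul_eq {b : MonoidAlgebra k G} (h : N ≤ leftStab b) (hbe : b * e = e) :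
    N ≤ leftStab e := fun n hn => by
  rw [mem_leftStab]
  conv_lhs => rw [← hbe, ← mul_assoc, mem_leftStab.1 (h hn)]
  exact hbe

/-- The core of `C(Q)` fixes a block of `C(Q)` exactly if the core of `N(Q)` fixes the covering
block of `N(Q)`. -/
theorem coreFix_iff_normalizer (hpπ : p ∈ π) {b : MonoidAlgebra k G}
    (hb : IsBlockIdem (Subgroup.normalizer (Q : Set G)) b)
    (h : PairOf p (Subgroup.normalizer (Q : Set G)) b Q e) :
    CoreFix π Q e ↔
      Cfsg.piCoreOf {q | q ∉ π} (Subgroup.normalizer (Q : Set G)) ≤ leftStab b := by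
  set N := Subgroup.normalizer (Q : Set G)
  set σ : Set ℕ := {q | q ∉ π}
  have hCN : Subgroup.centralizer (Q : Set G) ≤ N := Subgroup.centralizer_le_normalizer _
  constructor
  · intro hc
    exact le_leftStab_of_pairOf hb h (BGAppendix.piCoreOf_le σ N)
      (BGAppendix.le_normalizer_piCoreOf σ N) (not_dvd_card_piCore hpπ N)
      ((BGAppendix.piCoreOf_inf_le hCN).trans hc)
  · intro hc
    have h1 : Cfsg.piCoreOf σ (Subgroup.centralizer (Q : Set G)) ≤ Cfsg.piCoreOf σ N :=
      BGAppendix.le_piCoreOf ((BGAppendix.piCoreOf_le σ _).trans hCN) (le_normalizer_core le_rfl)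
        (BGAppendix.piSubgroup_piCoreOf _ _)
    refine le_leftStab_of_mul_eq (h1.trans hc) ?_
    conv_lhs => rw [← brau_eq_self h.1.1 h.1.2.1 le_rfl hb.mem hb.mul_self]
    exact h.2

end Alg


section Bridge

open Cfsg

variable {G : Type*} [Group G] [Finite G] {p : ℕ} [Fact p.Prime] {M : Ideal AlgInt} [M.IsPrime]

/-- A normal subgroup of order prime to `p` lies in the kernel of a block exactly if it fixes the
block idempotent. -/
theorem forall_mem_blockKer_iff_top [CharP (Blocks.Res M) p] (hM : IsPModular p M)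
    {B : Set (IrrCharacter G)} (hB : IsPBlock M B) (N : Subgroup G) [N.Normal]
    (hN : ¬ p ∣ Nat.card N) :
    (∀ n ∈ N, n ∈ blockKer B) ↔ N ≤ leftStab (redElem M (blockCoeff B)) := by
  classical
  haveI := Fintype.ofFinite G
  haveI := Fintype.ofFinite N
  set β : G → ℂ := fun g => if g ∈ N then (Nat.card N : ℂ)⁻¹ else 0 with hβdef
  have hloc : ∀ g, MemLocalRing M (β g) := fun g => by
    by_cases h : g ∈ N
    · simp only [β, if_pos h]; exact Blocks.memLocalRing_inv_natCast hM hN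
    · simp only [β, if_neg h]; exact (Blocks.locRing M).zero_mem
  have hcl : IsClassFunction G β := fun g x => by
    have : x * g * x⁻¹ ∈ N ↔ g ∈ N :=
      ⟨fun h => by simpa [mul_assoc] using Subgroup.Normal.conj_mem ‹N.Normal› _ h x⁻¹,
        fun h => Subgroup.Normal.conj_mem ‹N.Normal› _ h x⟩
    simp only [β, this]
  have hω : ∀ χ : IrrCharacter G, (∑ x, β x * (χ : G → ℂ) x) / (χ : G → ℂ) 1 =
      if (∀ n ∈ N, (χ : G → ℂ) n = (χ : G → ℂ) 1) then 1 else 0 := by
    intro χ
    have hsum : ∑ x, β x * (χ : G → ℂ) x = (Nat.card N : ℂ)⁻¹ * ∑ n : N, (χ : G → ℂ) n := by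
      simp only [β, ite_mul, zero_mul, ← Finset.sum_filter, Finset.mul_sum]
      exact Finset.sum_subtype _ (by simp) _
    rw [hsum]
    split_ifs with h
    · have h0 : (χ : G → ℂ) 1 ≠ 0 := by
        rw [(charDegree_spec χ).1]; exact Nat.cast_ne_zero.2 (charDegree_spec χ).2.1.ne'
      rw [Finset.sum_congr rfl (g := fun _ : N => (χ : G → ℂ) 1) (fun n _ => h n.1 n.2), Finset.sum_const, Finset.card_univ,
        nsmul_eq_mul, ← Nat.card_eq_fintype_card, inv_mul_cancel_left₀
          (Nat.cast_ne_zero.2 Nat.card_pos.ne'), div_self h0]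
    · rw [((BlockLocal.Canonical.kernel_or_sum_eq_zero χ).resolve_left h), mul_zero, zero_div]
  have hred : redElem M β = grpAvg (Blocks.Res M) N := by
    ext g
    rw [coeff_redElem, grpAvg, MonoidAlgebra.coeff_smul, Finsupp.smul_apply, smul_eq_mul]
    by_cases h : g ∈ N
    · rw [coeff_grpSum_of_mem h, mul_one, show β g = (Nat.card N : ℂ)⁻¹ from if_pos h,
        redC_of_mem (Blocks.memLocalRing_inv_natCast hM hN)]
      refine eq_inv_of_mul_eq_one_left ?_
      rw [← map_natCast (Blocks.red M), ← map_mul, ← map_one (Blocks.red M)]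
      congr 1
      exact Subtype.ext (inv_mul_cancel₀ (Nat.cast_ne_zero.2 Nat.card_pos.ne'))
    · rw [coeff_grpSum_of_notMem h, mul_zero, show β g = 0 from if_neg h, redC_zero]
  obtain ⟨-, -, hI⟩ := indicator_redElem (M := M) hloc hcl
    (fun χ => ∀ n ∈ N, (χ : G → ℂ) n = (χ : G → ℂ) 1) hω
  constructor
  · intro h
    obtain ⟨χ, hχ⟩ := Blocks.isPBlock_nonempty hB
    exact le_leftStab_of_grpAvg_mul (hred ▸ (hI B hB χ hχ).1 fun n hn => h n hn χ hχ)
  · intro h n hn χ hχ
    by_contra hne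
    have h0 := (hI B hB χ hχ).2 fun hker => hne (hker n hn)
    rw [hred, grpAvg_mul hN h] at h0
    exact (isBlockIdem_redElem_blockCoeff hB).ne_zero h0

/-- The same for a block of a subgroup. -/
theorem forall_mem_blockKer_iff [CharP (Blocks.Res M) p] (hM : IsPModular p M) {K : Subgroup G}
    {c : Set (IrrCharacter K)} (hc : IsPBlock M c) (N : Subgroup K) [N.Normal]
    (hN : ¬ p ∣ Nat.card N) :
    (∀ n ∈ N, n ∈ blockKer c) ↔ N.map K.subtype ≤ leftStab (subIdem M K c) := by
  rw [forall_mem_blockKer_iff_top hM hc N hN, subIdem, redElem_subgroupBlockCoeff]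
  have hs : ∀ n : K, single ((n : G)) (1 : Blocks.Res M) = mapG K.subtype (single n 1) := fun n => by
    simp [mapG]
  constructor
  · rintro h _ ⟨n, hn, rfl⟩
    rw [mem_leftStab, Subgroup.coe_subtype, hs, ← map_mul, mem_leftStab.1 (h hn)]
  · intro h n hn
    have h1 := mem_leftStab.1 (h (Subgroup.mem_map_of_mem _ hn))
    rw [Subgroup.coe_subtype, hs, ← map_mul] at h1
    exact mem_leftStab.2 (mapG_injective K.subtype_injective h1)

/-- A pair of a block of `K ≥ C(Q)` is a pair of the induced block. -/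
theorem pairOf_of_isInducedBlock [CharP (Blocks.Res M) p] {K : Subgroup G}
    {b : Set (IrrCharacter K)} {B : Set (IrrCharacter G)} (hind : IsInducedBlock M K b B)
    {Q : Subgroup G} {e : MonoidAlgebra (Blocks.Res M) G} (hC : Subgroup.centralizer (Q : Set G) ≤ K)
    (he : PairOf p K (subIdem M K b) Q e) : PairOf p ⊤ (redElem M (blockCoeff B)) Q e := by
  classical
  haveI := Fintype.ofFinite G
  haveI := Fintype.ofFinite K
  obtain ⟨hb, hB, -⟩ := id hind
  have hQ := he.1.1
  have hQK := he.1.2.1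
  have hcen : cenIn ⊤ Q = cenIn K Q := by
    rw [cenIn_top]
    exact le_antisymm (le_inf hC le_rfl) inf_le_right
  have hpair : IsPair p ⊤ Q e := ⟨hQ, le_top, hcen ▸ he.1.2.2⟩
  set bB := redElem M (blockCoeff B) with hbB
  have hbi := isBlockIdem_redElem_blockCoeff (M := M) hB
  refine ⟨hpair, ?_⟩
  -- the truncation of the block idempotent to `K`
  set β : K → ℂ := fun h => blockCoeff B (h : G) with hβ
  have hloc : ∀ h, MemLocalRing M (β h) := fun h => Blocks.memLocalRing_blockCoeff hB _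
  have hcl : IsClassFunction K β := fun g x => Blocks.blockCoeff_conj B (x : G) (g : G)
  have hy : trunc K bB = mapG K.subtype (redElem M β) := by
    ext g
    by_cases hg : g ∈ K
    · obtain ⟨h, rfl⟩ : ∃ h : K, K.subtype h = g := ⟨⟨g, hg⟩, rfl⟩
      rw [coeff_trunc_of_mem hg, coeff_mapG_apply K.subtype_injective, hbB, coeff_redElem,
        coeff_redElem]
      rfl
    · rw [coeff_trunc_of_not_mem hg, coeff_mapG_of_not_mem _ (by rwa [Subgroup.range_subtype])]
  set z := Blocks.classMap (Blocks.red M) (locElem β hloc hcl) with hz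
  obtain ⟨ξ, hξ⟩ := Blocks.isPBlock_nonempty hb
  obtain ⟨χ, hχ⟩ := Blocks.isPBlock_nonempty hB
  have hval : Blocks.omegaRes M ξ z ≠ 0 := by
    rw [hz, Blocks.omegaRes_classMap, Blocks.red_ne_zero_iff, coe_omegaLoc_locElem]
    have h1 : (∑ x, blockCoeff B x * (χ : G → ℂ) x) / (χ : G → ℂ) 1 = 1 := by
      rw [← Blocks.omega_blockIdem_of_mem hχ, Blocks.omega_eq_sum]
      simp only [Blocks.coeff_blockIdem]
    have h2 := BlockLocal.memLocalIdeal_sum_sub_of_isInducedBlock hind hξ hχ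
      (CharTheory.IsIrrCharacter.isClassFunction χ.2) (a := blockCoeff B)
      (fun g x => Blocks.blockCoeff_conj B x g) (Blocks.memLocalRing_blockCoeff hB)
    rw [h1] at h2
    intro h3
    refine Blocks.not_memLocalIdeal_one (M := M) ?_
    have h4 := Blocks.memLocalIdeal_sub h3 h2
    rwa [sub_sub_cancel] at h4
  have hnil : ¬ IsNilpotent (trunc K bB * subIdem M K b) := by
    intro hn
    refine hval ((omegaRes_eq_zero_iff_nilpotent hb hξ z).2 ?_)
    obtain ⟨m, hm⟩ := hn
    refine ⟨m, mapG_injective K.subtype_injective ?_⟩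
    rw [map_pow, map_mul, map_zero, hz, coe_classMap_red_locElem, ← hy,
      ← redElem_subgroupBlockCoeff]
    exact hm
  have hbK : bB ∈ fixedBy (Blocks.Res M) K := fixedBy_anti le_top (mem_ctr.1 hbi.mem).2
  have hyc : trunc K bB ∈ ctr (Blocks.Res M) K :=
    mem_ctr.2 ⟨trunc_mem_supp _ _, trunc_mem_fixedBy Subgroup.le_normalizer hbK⟩
  have hsub := isBlockIdem_subIdem (M := M) hb
  obtain ⟨w, hw, -, hwy⟩ := (hsub.nilpotent_or_inverse hyc).resolve_left hnil
  refine (hpair.brau_mul_dichotomy (fun g hg => absurd (Subgroup.mem_top g) hg)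
    (fixedBy_anti inf_le_left (mem_ctr.1 hbi.mem).2) (fixedBy_anti le_top (mem_ctr.1 hbi.mem).2)
    hbi.mul_self).resolve_left fun h0 => hpair.2.2.ne_zero ?_
  have hwQ : w ∈ fixedBy (Blocks.Res M) Q := fixedBy_anti hQK (mem_ctr.1 hw).2
  have hyQ : trunc K bB ∈ fixedBy (Blocks.Res M) Q := fixedBy_anti hQK (mem_ctr.1 hyc).2
  have hsQ : subIdem M K b ∈ fixedBy (Blocks.Res M) Q := fixedBy_anti hQK (mem_ctr.1 hsub.mem).2
  calc e = brau Q (w * (trunc K bB * subIdem M K b)) * e := by rw [hwy, he.2]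
    _ = brau Q w * (brau Q (trunc K bB) * (brau Q (subIdem M K b) * e)) := by
        rw [trunc_centralizer_mul hQ hwQ (mul_mem hyQ hsQ), trunc_centralizer_mul hQ hyQ hsQ]
        simp only [mul_assoc]
    _ = 0 := by rw [he.2, trunc_trunc hC, h0, mul_zero]

theorem forall_piCore_blockKer_iff [CharP (Blocks.Res M) p] (hM : IsPModular p M) {π : Set ℕ}
    (hpπ : p ∈ π) {K : Subgroup G} {c : Set (IrrCharacter K)} (hc : IsPBlock M c) :
    (∀ n : K, n ∈ piCore {q | q ∉ π} K → n ∈ blockKer c) ↔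
      piCoreOf {q | q ∉ π} K ≤ leftStab (subIdem M K c) :=
  forall_mem_blockKer_iff hM hc (piCore {q | q ∉ π} K)
    fun h => (BGAppendix.piSubgroup_piCore (G := K)) p Fact.out h hpπ

/-- The Brauer correspondent gives a maximal pair, and its kernel hypothesis is the core
condition on that pair. -/
theorem exists_maxPair_coreFix [CharP (Blocks.Res M) p] (hM : IsPModular p M) {π : Set ℕ}
    (hpπ : p ∈ π) {B : Set (IrrCharacter G)} (hB : IsPBlock M B) {D : Subgroup G}
    (hBD : IsDefectGroup p M B D) {B₁ : Set (IrrCharacter (Subgroup.normalizer (D : Set G)))}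
    (hB₁ : IsInducedBlock M (Subgroup.normalizer (D : Set G)) B₁ B)
    (hB₁D : IsDefectGroup p M B₁ (D.subgroupOf (Subgroup.normalizer (D : Set G)))) :
    ∃ e, IsMaxPair p ⊤ (redElem M (blockCoeff B)) D e ∧
      (CoreFix π D e ↔ ∀ n : Subgroup.normalizer (D : Set G),
        n ∈ piCore {q | q ∉ π} (Subgroup.normalizer (D : Set G)) → n ∈ blockKer B₁) := by
  have hmap : (D.subgroupOf (Subgroup.normalizer (D : Set G))).map
      (Subgroup.normalizer (D : Set G)).subtype = D := by
    rw [Subgroup.subgroupOf_map_subtype, inf_eq_left.2 Subgroup.le_normalizer]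
  have hd := (isDefectGroup_sub_iff hM hB₁.1).1 hB₁D
  rw [hmap] at hd
  obtain ⟨e, he⟩ := exists_isMaxPair_of_isDefectIn (isBlockIdem_subIdem hB₁.1) hd
  have hp := pairOf_of_isInducedBlock hB₁ (Subgroup.centralizer_le_normalizer _) he.1
  refine ⟨e, ?_, ?_⟩
  · have hbi := isBlockIdem_redElem_blockCoeff (M := M) hB
    obtain ⟨R, g, hR, hle⟩ := exists_isMaxPair_above hp
    obtain ⟨c, -, hcR⟩ := ((isDefectGroup_iff hM hB).1 hBD).exists_conj (hR.isDefectIn hbi)
    obtain rfl : D = R := Subgroup.eq_of_le_of_card_ge hle.le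
      (by rw [hcR, Subgroup.card_map_of_injective (MulAut.conj c).injective])
    obtain rfl : e = g :=
      (existsUnique_pairLE hR.1.1 le_rfl).unique hle (PairLE.refl _ _ _ _)
    exact hR
  · rw [forall_piCore_blockKer_iff hM hpπ hB₁.1]
    exact coreFix_iff_normalizer hpπ (isBlockIdem_subIdem hB₁.1) he.1

end Bridge

end CfsgLib.BrauerCharacters
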